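import Cfsg.Agent.Lib.Helper13.JFun2
import Cfsg.Agent.S0590

set_option autoImplicit false
open Cfsg

/-! Abelian subgroups of largest order give best offenders. -/

namespace Cfsg.Agent.Lib.Helper13

open Subgroup
open scoped commutatorElement

variable {G : Type*} [Group G] {p : ℕ}

theorem exists_bestOffender_of_abelian [Finite G] [Fact p.Prime] {V A : Subgroup G}
    (hV : IsElementaryAbelian p V) (hAV : A ≤ normalizer (V : Set G))
    (hAc : ∀ x ∈ A, ∀ y ∈ A, x * y = y * x) (hAp : IsPGroup p A)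
    (hoff : Nat.card ↥(A ⊓ centralizer (V : Set G)) * Nat.card V ≤ om V A)
    (hA : ¬ A ≤ centralizer (V : Set G)) :
    ∃ B : Subgroup G, B ≤ A ∧ IsBestOffenderOn p V B ∧ ¬ B ≤ centralizer (V : Set G) := by
  have hVc : ∀ x ∈ V, ∀ y ∈ V, x * y = y * x := fun x hx y hy => IsEA.comm hV hx hy
  obtain ⟨B0, hB0, hmax0⟩ := Set.exists_max_image {B : Subgroup G | B ≤ A} (fun B => om V B) (Set.toFinite _)
    ⟨A, le_refl A⟩
  obtain ⟨B1, hB1A, hB1V, hmax1⟩ : ∃ B1 : Subgroup G, B1 ≤ A ∧ ¬ B1 ≤ centralizer (V : Set G) ∧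
      ∀ B : Subgroup G, B ≤ A → om V B ≤ om V B1 := by
    by_cases h0 : B0 ≤ centralizer (V : Set G)
    · refine ⟨A, le_rfl, hA, fun B hB => (hmax0 B hB).trans (le_trans ?_ hoff)⟩
      unfold om
      exact Nat.mul_le_mul (card_le_of_le (le_inf hB0 h0)) (card_le_of_le inf_le_left)
    · exact ⟨B0, hB0, h0, hmax0⟩
  have hB1N : B1 ≤ normalizer (V : Set G) := hB1A.trans hAV
  have hcomm : ∀ D : Subgroup G, D ≤ A → ⁅D, D⁆ ≤ centralizer (V : Set G) := by
    intro D hD
    have : ⁅D, D⁆ = ⊥ := by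
      rw [commutator_eq_bot_iff_le_centralizer]
      intro x hx
      rw [mem_centralizer_iff]
      intro y hy
      exact hAc y (hD hy) x (hD hx)
    rw [this]
    exact bot_le
  obtain ⟨e, f⟩ := replacement hVc hB1N (hcomm B1 hB1A) (fun B hB => hmax1 B (hB.trans hB1A)) V le_rfl
  set B := B1 ⊓ centralizer ((⁅V, B1⁆ : Subgroup G) : Set G) with hB
  have hBB1 : B ≤ B1 := inf_le_left
  have hquad : ⁅⁅V, B⁆, B⁆ = ⊥ := by
    rw [commutator_eq_bot_iff_le_centralizer]
    refine (commutator_mono le_rfl hBB1).trans ?_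
    rw [le_centralizer_iff]
    exact inf_le_right
  have h590 := Cfsg.Agent.S0590.result V B hV (hBB1.trans hB1N) hquad
  refine ⟨B, hBB1.trans hB1A, ⟨fun D hD => ?_, h590.1, h590.2⟩, ?_⟩
  · exact (hmax1 D ((hD.trans hBB1).trans hB1A)).trans (le_of_eq e.symm)
  · intro hbot
    apply hB1V
    rw [le_centralizer_iff] at hbot
    rw [inf_eq_left.mpr hbot] at f
    have hWV : ⁅V, B1⁆ ≤ V := le_normalizer_iff_commutator_le_left.mp hB1N
    have hzero : ⁅V, B1⁆ = ⊥ := by
      apply eq_bot_of_le_commutator (IsEA.isPGroup hV) hB1N (fun a ha => by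
        obtain ⟨k, hk⟩ := hAp ⟨a, hB1A ha⟩
        refine ⟨k, ?_⟩
        have : a ^ p ^ k = 1 := congrArg Subtype.val hk
        rw [this]
        exact one_mem _) hWV
      rw [commutator_le]
      intro v hv a ha
      have hn : ⁅V, B1⁆ ≤ normalizer ((V ⊓ centralizer (B1 : Set G) : Subgroup G) : Set G) :=
        (hWV.trans (IsEA.le_centralizer hV)).trans
          ((centralizer_le (show ((V ⊓ centralizer (B1 : Set G) : Subgroup G) : Set G) ⊆ V from
            inf_le_left (a := V))).trans (centralizer_le_normalizer _))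
      rw [f] at hv
      obtain ⟨x, hx, c, hc, rfl⟩ := mem_sup_of_le_normalizer hn hv
      have h1 := mem_centralizer_iff.mp hc.2 a ha
      have h2 : ⁅x * c, a⁆ = ⁅x, a⁆ := by
        rw [commutatorElement_def, commutatorElement_def]
        calc x * c * a * (x * c)⁻¹ * a⁻¹ = x * (c * a) * c⁻¹ * x⁻¹ * a⁻¹ := by group
          _ = x * (a * c) * c⁻¹ * x⁻¹ * a⁻¹ := by rw [h1]
          _ = x * a * x⁻¹ * a⁻¹ := by group
      rw [h2]
      exact commutator_mem_commutator hx ha
    rw [commutator_eq_bot_iff_le_centralizer, le_centralizer_iff] at hzero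
    exact hzero

theorem maxAb_offender [Finite G] {e : ℕ} {V T A : Subgroup G} (hVe : AbExp e V) (hVT : V ≤ T)
    (hA : A ∈ maxAb e T) : Nat.card ↥(A ⊓ centralizer (V : Set G)) * Nat.card V ≤ om V A := by
  set D := (A ⊓ centralizer (V : Set G)) ⊔ V with hD
  have hcomm : ∀ x ∈ D, ∀ y ∈ D, x * y = y * x := by
    apply comm_sup (X := A ⊓ centralizer (V : Set G)) (Y := V)
      (fun x hx y hy => hA.2.1.1 x hx.1 y hy.1) hVe.1
    intro x hx y hy
    exact (mem_centralizer_iff.mp hx.2 y hy).symm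
  have hDe : AbExp e D := by
    refine ⟨hcomm, ?_⟩
    intro x hx
    have hn : A ⊓ centralizer (V : Set G) ≤ normalizer (V : Set G) :=
      inf_le_right.trans (centralizer_le_normalizer _)
    obtain ⟨a, ha, v, hv, rfl⟩ := mem_sup_of_le_normalizer hn hx
    have hc : Commute a v := (mem_centralizer_iff.mp ha.2 v hv).symm
    rw [hc.mul_pow, hA.2.1.2 a ha.1, hVe.2 v hv, one_mul]
  have h1 := hA.2.2 D (sup_le (inf_le_left.trans hA.1) hVT) hDe
  have h2 := card_sup_mul_card_inf (A ⊓ centralizer (V : Set G)) V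
    (inf_le_right.trans (centralizer_le_normalizer _))
  have h3 : (A ⊓ centralizer (V : Set G)) ⊓ V ≤ V ⊓ centralizer (A : Set G) := by
    intro x hx
    refine mem_inf.mpr ⟨hx.2, ?_⟩
    rw [mem_centralizer_iff]
    intro a ha
    exact hA.2.1.1 a ha x hx.1.1
  rw [← h2]
  unfold om
  exact Nat.mul_le_mul h1 (card_le_of_le h3)

end Cfsg.Agent.Lib.Helper13
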