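import Cfsg.Agent.Lib.Helper13.SL2Q8
import Cfsg.Agent.Lib.Helper13.OddQuad2

set_option autoImplicit false
open Cfsg

/-! Groups not involving `SL₂(p)` are `p`-stable in every sense. -/

universe u

namespace Cfsg.Agent.Lib.Helper13

open Subgroup Matrix
open scoped commutatorElement

variable {p : ℕ} [Fact p.Prime]

theorem isNormalizerPStable_of_not_involves {G : Type u} [Group G] [Finite G] (hp : p ≠ 2)
    (h : ¬ Involves (SpecialLinearGroup (Fin 2) (ZMod p)) G) : IsNormalizerPStable p G := by
  by_contra hn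
  obtain ⟨-, P₀, -, -, h1⟩ := Cfsg.Agent.H12.Dk.cq_of_not_stable hp hn
  exact h (Involves.of_subgroup h1)

theorem isPStableOnSection_of_quotient {Y : Type*} [Group Y] [Finite Y] (U N : Subgroup Y) [N.Normal]
    [hn : (U.map (QuotientGroup.mk' N)).Normal] (h : IsPStableOn p (U.map (QuotientGroup.mk' N))) :
    IsPStableOnSection p U N := by
  intro a ha
  set π := QuotientGroup.mk' N with hπ
  have hπs : Function.Surjective π := QuotientGroup.mk'_surjective N
  set P := U.map π with hP
  have h2 : ⁅⁅P, zpowers (π a)⁆, zpowers (π a)⁆ = ⊥ := by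
    rw [eq_bot_iff, hP, ← MonoidHom.map_zpowers, ← map_commutator, ← map_commutator]
    rintro _ ⟨u, hu, rfl⟩
    exact (QuotientGroup.eq_one_iff u).mpr (ha hu)
  have h3 := h (π a) h2
  set φ : Y →* (Y ⧸ N) ⧸ centralizer (P : Set (Y ⧸ N)) := (QuotientGroup.mk' (centralizer (P : Set (Y ⧸ N)))).comp π
    with hφ
  have hφs : Function.Surjective φ := (QuotientGroup.mk'_surjective _).comp hπs
  have hker : sectionKernel U N = (⊥ : Subgroup ((Y ⧸ N) ⧸ centralizer (P : Set (Y ⧸ N)))).comap φ := by
    rw [hφ, ← comap_comap, MonoidHom.comap_bot, QuotientGroup.ker_mk']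
    rfl
  refine ⟨(pCore p _).comap φ, inferInstance, ?_, ?_, h3⟩
  · rw [hker]
    exact comap_mono bot_le
  · rw [hker, relIndex_comap, map_comap_eq_self_of_surjective hφs, relIndex_bot_left]
    exact IsPGroup.iff_card.mp (Cfsg.Agent.H12.pCore_isPGroup p _)

theorem isActionPStable_of_not_involves {G : Type u} [Group G] [Finite G] (hp : p ≠ 2)
    (h : ¬ Involves (SpecialLinearGroup (Fin 2) (ZMod p)) G) : IsActionPStable p G := by
  refine ⟨?_, ?_, ?_⟩
  · intro V _ hV
    exact Cfsg.Agent.H17.isPStableOn_of_normalizerPStable (isNormalizerPStable_of_not_involves hp h) V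
      (IsEA.isPGroup hV)
  · have hn : ((pCore p G).map (QuotientGroup.mk' ((frattini ↥(pCore p G)).map (pCore p G).subtype))).Normal :=
      Normal.map inferInstance _ (QuotientGroup.mk'_surjective _)
    apply isPStableOnSection_of_quotient
    apply Cfsg.Agent.H17.isPStableOn_of_normalizerPStable
    · apply isNormalizerPStable_of_not_involves hp
      intro h1
      exact h (Involves.of_quotient h1)
    · exact (Cfsg.Agent.H12.pCore_isPGroup p G).map _
  · intro S V _ hV
    apply Cfsg.Agent.H17.isPStableOn_of_normalizerPStable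
    · apply isNormalizerPStable_of_not_involves hp
      intro h1
      exact h (Involves.of_subgroup h1)
    · have h1 : IsPGroup p (V.map (normalizer (thompsonSubgroupOf p (S : Subgroup G) : Set G)).subtype) :=
        S.2.to_le (hV.trans (map_subtype_le _))
      intro x
      obtain ⟨k, hk⟩ := h1 ⟨x.1.1, ⟨x.1, x.2, rfl⟩⟩
      have hk' : (x.1.1) ^ p ^ k = 1 := congrArg Subtype.val hk
      exact ⟨k, Subtype.ext (Subtype.ext hk')⟩

end Cfsg.Agent.Lib.Helper13
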