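import Cfsg.Agent.Lib.Helper13.Amb3

set_option autoImplicit false
open Cfsg

/-! Failure of factorization for `p = 3` gives non-abelian `2`-subgroups. -/

namespace Cfsg.Agent.Lib.Helper13

open Subgroup
open scoped commutatorElement

variable {G : Type*} [Group G] {p : ℕ}

theorem FFSetup.exists_minOff [Finite G] [Fact p.Prime] {V H A : Subgroup G} (h : FFSetup p V H) (hA : A ≤ H)
    (hbo : IsBestOffenderOn p V A) (hA1 : A ≠ ⊥) : ∃ B : Subgroup G, B ≤ A ∧ MinOff p V H B := by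
  obtain ⟨B, hB, hmin⟩ := (Set.toFinite {B : Subgroup G | B ≤ A ∧ IsBestOffenderOn p V B ∧ B ≠ ⊥}).exists_minimal
    ⟨A, le_rfl, hbo, hA1⟩
  obtain ⟨hBA, hBbo, hB1⟩ := hB
  have hcard : Nat.card B = p := by
    apply h.card_eq_of_min (hBA.trans hA) hBbo hB1
    intro C hC hCbo hC1
    exact le_antisymm hC (hmin ⟨hC.trans hBA, hCbo, hC1⟩ hC)
  exact ⟨B, hBA, h, hBA.trans hA, hBbo, hcard⟩

/-- `p`-subgroups of the image lift to `p`-subgroups -/
theorem exists_pSubgroup_map_eq [Finite G] [Fact p.Prime] {G' : Type*} [Group G'] (f : G →* G')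
    {D : Subgroup G'} (hD : D ≤ f.range) (hDp : IsPGroup p D) :
    ∃ T : Subgroup G, IsPGroup p T ∧ T.map f = D := by
  have hsurj : Function.Surjective (f.subgroupComap D) := by
    rintro ⟨y, hy⟩
    obtain ⟨g, rfl⟩ := hD hy
    exact ⟨⟨g, hy⟩, rfl⟩
  obtain ⟨P⟩ : Nonempty (Sylow p (D.comap f)) := inferInstance
  have htop : ((P.mapSurjective hsurj : Sylow p D) : Subgroup D) = ⊤ :=
    ((P.mapSurjective hsurj).is_maximal' (hDp.to_subgroup ⊤) le_top).symm
  refine ⟨(P : Subgroup (D.comap f)).map (D.comap f).subtype, P.2.map _, ?_⟩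
  apply le_antisymm
  · rintro _ ⟨_, ⟨x, -, rfl⟩, rfl⟩
    exact x.2
  · intro y hy
    have h1 : (⟨y, hy⟩ : D) ∈ ((P.mapSurjective hsurj : Sylow p D) : Subgroup D) := by
      rw [htop]
      exact mem_top _
    rw [Sylow.coe_mapSurjective] at h1
    obtain ⟨x, hx, hxy⟩ := h1
    exact ⟨x.1, ⟨x, hx, rfl⟩, congrArg Subtype.val hxy⟩

theorem amb_FFSetup [Finite G] [Fact p.Prime] (V : Subgroup G) [V.Normal] (hV : IsElementaryAbelian p V)
    (hS1 : centralizer (pPrimeCore p (G ⧸ centralizer (V : Set G)) : Set (G ⧸ centralizer (V : Set G)))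
      ≤ pPrimeCore p (G ⧸ centralizer (V : Set G))) : FFSetup p (ambV V) (ambR V).range := by
  refine ⟨amb_isEA V hV, ?_, amb_range_inf V, ?_⟩
  · rw [normalizer_eq_top]
    exact le_top
  · exact selfcent_congr (ambE V) (Cfsg.H9.map_pPrimeCore p (ambE V)) hS1

/-- failure of factorization for `p = 3` -/
theorem exists_nonabelian_of_offender [Finite G] (V : Subgroup G) [V.Normal] (hV : IsElementaryAbelian 3 V)
    (hS1 : centralizer (pPrimeCore 3 (G ⧸ centralizer (V : Set G)) : Set (G ⧸ centralizer (V : Set G)))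
      ≤ pPrimeCore 3 (G ⧸ centralizer (V : Set G)))
    {A : Subgroup G} (hbo : IsBestOffenderOn 3 V A) (hA : ¬ A ≤ centralizer (V : Set G)) :
    ∃ T : Subgroup G, IsPGroup 2 T ∧ ¬ IsMulCommutative T := by
  have : Fact (Nat.Prime 3) := ⟨Nat.prime_three⟩
  have : Fact (Nat.Prime 2) := ⟨Nat.prime_two⟩
  have hFF := amb_FFSetup V hV hS1
  have hA1 : A.map (ambR V) ≠ ⊥ := by
    intro h
    rw [Subgroup.map_eq_bot_iff, ambR_ker] at h
    exact hA h
  obtain ⟨B, -, m⟩ := hFF.exists_minOff (map_le_range _ _) (amb_bestOffender V hbo) hA1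
  have hle : ⁅Qc 3 (ambR V).range, B⁆ ≤ (ambR V).range :=
    commutator_le.mpr fun x hx b hb => by
      have hx' := Qc_le _ hx
      have hb' := m.hAH hb
      exact mul_mem (mul_mem (mul_mem hx' hb') (inv_mem hx')) (inv_mem hb')
  obtain ⟨T, hT, hmap⟩ := exists_pSubgroup_map_eq (ambR V) hle m.isPGroup_two
  refine ⟨T, hT, fun hcomm => m.not_comm ?_⟩
  rw [← hmap]
  refine ⟨⟨?_⟩⟩
  rintro ⟨_, x, hx, rfl⟩ ⟨_, y, hy, rfl⟩
  apply Subtype.ext
  change ambR V x * ambR V y = ambR V y * ambR V x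
  rw [← map_mul, ← map_mul]
  congr 1
  exact congrArg Subtype.val (hcomm.is_comm.comm ⟨x, hx⟩ ⟨y, hy⟩)

end Cfsg.Agent.Lib.Helper13
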