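import Cfsg.Agent.Lib.Helper13.FF9
import Cfsg.Agent.Lib.Helper13.HHDual
import Cfsg.Agent.Lib.Helper13.Amb2
import Cfsg.Agent.H12.Dk27

set_option autoImplicit false
open Cfsg

/-! KS 9.3.9: failure of factorization in a `p`-separable group gives a normal `SL(2, p)` in `J(G) C_G(V) / C_G(V)`. -/

namespace Cfsg.Agent.Lib.Helper13

open Subgroup
open scoped commutatorElement

variable {G : Type*} [Group G] {p : ℕ}

theorem FFSetup.exists_minOff' [Finite G] [Fact p.Prime] {V H : Subgroup G} (h : FFSetup p V H)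
    (hS3 : GenOff p V H) (hH1 : H ≠ ⊥) : ∃ B, MinOff p V H B := by
  by_contra hcon
  apply hH1
  rw [eq_bot_iff]
  refine (h.le_closure_minOff hS3).trans ?_
  rw [closure_le]
  rintro b ⟨B, mB, hb⟩
  exact absurd ⟨B, mB⟩ hcon

/-- the setup in the ambient group for a normal subgroup generated by best offenders -/
theorem amb_FFSetup_of_normal [Finite G] [Fact p.Prime] (V : Subgroup G) [V.Normal] (hV : IsElementaryAbelian p V)
    (hOp : pCore p (G ⧸ centralizer (V : Set G)) = ⊥) (hsep : IsPSolvable p G) (J : Subgroup G) (hJn : J.Normal) :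
    FFSetup p (ambV V) (J.map (ambR V)) := by
  have hs : IsPSolvable p ↥(J.map (ambR V)) :=
    Cfsg.Agent.H12.Dk.isPSolvable_of_surjective (Cfsg.Agent.Lib.Helper22.isPSolvable_subgroup Fact.out hsep J)
      ((ambR V).subgroupMap J) ((ambR V).subgroupMap_surjective J)
  have hcore : pCore p ↥(J.map (ambR V)) = ⊥ := by
    set Nb := J.map (QuotientGroup.mk' (centralizer (V : Set G))) with hNb
    have hNn : Nb.Normal := hJn.map _ (QuotientGroup.mk'_surjective _)
    have h1 : pCore p ↥Nb = ⊥ := by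
      have h2 := Cfsg.Agent.H12.pCore_map_le p Nb
      rw [hOp, le_bot_iff, map_eq_bot_iff_of_injective _ Nb.subtype_injective] at h2
      exact h2
    have hmap : Nb.map (SemidirectProduct.inr : _ →* Amb V) = J.map (ambR V) := by
      rw [hNb, Subgroup.map_map]
      rfl
    let e : ↥Nb ≃* ↥(J.map (ambR V)) :=
      (Nb.equivMapOfInjective _ SemidirectProduct.inr_injective).trans (MulEquiv.subgroupCongr hmap)
    rw [← Cfsg.H9.map_pCore p e, h1, Subgroup.map_bot]
  refine ⟨amb_isEA V hV, ?_, ?_, centralizer_pPrimeCore_le_of_isPSolvable p hs hcore⟩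
  · rw [normalizer_eq_top]
    exact le_top
  · rw [eq_bot_iff, ← amb_range_inf V]
    exact inf_le_inf_right _ (map_le_range _ _)

theorem amb_genOff [Finite G] [Fact p.Prime] (V : Subgroup G) [V.Normal]
    (𝒜 : Set (Subgroup G)) (h𝒜 : ∀ A ∈ 𝒜, IsBestOffenderOn p V A) :
    GenOff p (ambV V) ((sSup 𝒜).map (ambR V)) := by
  unfold GenOff
  apply le_antisymm
  · rw [map_le_iff_le_comap]
    apply sSup_le
    intro A hA
    rw [← map_le_iff_le_comap]
    exact le_iSup (fun A : {A : Subgroup (Amb V) // A ≤ (sSup 𝒜).map (ambR V) ∧ IsBestOffenderOn p (ambV V) A} =>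
      (A : Subgroup (Amb V))) ⟨A.map (ambR V), map_mono (le_sSup hA), amb_bestOffender V (h𝒜 A hA)⟩
  · apply iSup_le
    intro A
    exact A.2.1

theorem exists_normal_SL_section [Finite G] [Fact p.Prime] (V : Subgroup G) [V.Normal]
    (hV : IsElementaryAbelian p V) (hOp : pCore p (G ⧸ centralizer (V : Set G)) = ⊥) (hsep : IsPSolvable p G)
    (𝒜 : Set (Subgroup G)) (h𝒜 : ∀ A ∈ 𝒜, IsBestOffenderOn p V A) (hJn : (sSup 𝒜).Normal)
    (hJ : ¬ sSup 𝒜 ≤ centralizer (V : Set G)) :
    (p = 2 ∨ p = 3) ∧ ∃ E : Subgroup G, centralizer (V : Set G) ≤ E ∧ E ≤ sSup 𝒜 ⊔ centralizer (V : Set G) ∧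
      sSup 𝒜 ⊔ centralizer (V : Set G) ≤ normalizer (E : Set G) ∧
      ∃ _ : ((centralizer (V : Set G)).subgroupOf E).Normal,
        Nonempty (E ⧸ (centralizer (V : Set G)).subgroupOf E ≃* Matrix.SpecialLinearGroup (Fin 2) (ZMod p)) := by
  set J := sSup 𝒜 with hJdef
  have hFF := amb_FFSetup_of_normal V hV hOp hsep J hJn
  have hGen := amb_genOff V 𝒜 h𝒜
  have hH1 : J.map (ambR V) ≠ ⊥ := by
    intro h
    rw [Subgroup.map_eq_bot_iff, ambR_ker] at h
    exact hJ h
  obtain ⟨B, mB⟩ := hFF.exists_minOff' hGen hH1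
  obtain ⟨x, hx, hxB⟩ := mB.exists_not_mem
  have s := mB.setup hx hxB
  set L' := B ⊔ cA B x with hL'
  have hL'H : L' ≤ J.map (ambR V) := s.sup_le
  obtain ⟨φ⟩ := s.nonempty_equiv
  have hk : ∀ g : G, g ∈ centralizer (V : Set G) ↔ ambR V g = 1 := by
    intro g
    have := ambR_ker V
    rw [← MonoidHom.mem_ker, this]
  have hCE : centralizer (V : Set G) ≤ L'.comap (ambR V) := by
    intro g hg
    rw [mem_comap, (hk g).mp hg]
    exact one_mem _
  refine ⟨s.two_or_three, L'.comap (ambR V), hCE, ?_, ?_, ?_⟩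
  · intro g hg
    obtain ⟨j, hj, hjg⟩ := hL'H hg
    have h1 : j⁻¹ * g ∈ centralizer (V : Set G) := by
      rw [hk, map_mul, map_inv, hjg, inv_mul_cancel]
    have h2 : g = j * (j⁻¹ * g) := by group
    rw [h2]
    exact mul_mem (mem_sup_left hj) (mem_sup_right h1)
  · apply sup_le _ (hCE.trans le_normalizer)
    intro j hj
    have h1 : ambR V j ∈ normalizer (L' : Set (Amb V)) := s.H_le_normalizer_L hGen ⟨j, hj, rfl⟩
    exact le_normalizer_comap (ambR V) h1
  · have hsurj : Function.Surjective ((ambR V).subgroupComap L') := by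
      rintro ⟨y, hy⟩
      obtain ⟨g, -, rfl⟩ := hL'H hy
      exact ⟨⟨g, hy⟩, rfl⟩
    have hker : ((ambR V).subgroupComap L').ker = (centralizer (V : Set G)).subgroupOf (L'.comap (ambR V)) := by
      ext x
      rw [MonoidHom.mem_ker, mem_subgroupOf, hk]
      constructor
      · intro h
        exact congrArg Subtype.val h
      · intro h
        exact Subtype.ext h
    have hn : ((centralizer (V : Set G)).subgroupOf (L'.comap (ambR V))).Normal := by
      rw [← hker]
      infer_instance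
    exact ⟨hn, ⟨((QuotientGroup.quotientMulEquivOfEq hker.symm).trans
      (QuotientGroup.quotientKerEquivOfSurjective _ hsurj)).trans φ⟩⟩

end Cfsg.Agent.Lib.Helper13
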