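import Cfsg.Agent.Lib.Helper13.FF10
import Cfsg.Agent.Lib.Helper13.Glaub5
import Cfsg.Agent.S0602
import Cfsg.Agent.S0606

set_option autoImplicit false
open Cfsg

/-! KS 9.3.9 (second part): `[Ω₁(Z(J(C_G(V)))), J(G)] ≤ V`. -/

namespace Cfsg.Agent.Lib.Helper13

open Subgroup
open scoped commutatorElement

variable {G : Type*} [Group G] {p : ℕ}

theorem comm_omega_thompson_le [Finite G] [Fact p.Prime] (hsep : IsPSolvable p G) (V : Subgroup G) [hVn : V.Normal]
    (hV : IsElementaryAbelian p V) (hO : pCore p (G ⧸ centralizer (V : Set G)) = ⊥) :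
    ⁅omegaOne p (centerThompsonOf p (centralizer (V : Set G))), thompsonSubgroup p G⁆ ≤ V := by
  set C := centralizer (V : Set G) with hC
  set Z₀ := omegaOne p (centerThompsonOf p C) with hZ₀
  have hJn : (thompsonSubgroup p G).Normal := by
    have : (thompsonSubgroup p G).Characteristic := (Cfsg.Agent.S0602.result (p := p)).1
    infer_instance
  have hFF := amb_FFSetup_of_normal V hV hO hsep (thompsonSubgroup p G) hJn
  rw [commutator_comm, ← le_sectionKernel_iff]
  apply sSup_le
  intro A hA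
  rw [le_sectionKernel_iff, commutator_comm]
  have hbo := Cfsg.Agent.S0606.result V hV A hA
  have hom := hFF.om_eq_card (A.map (ambR V)) (map_mono (le_sSup hA)) (amb_bestOffender V hbo)
  unfold om at hom
  rw [card_ambV_inf_centralizer] at hom
  have hcV : Nat.card (ambV V) = Nat.card V := by
    unfold ambV
    exact (Nat.card_congr (MonoidHom.ofInjective (ambI_injective V)).toEquiv).symm
  rw [hcV] at hom
  have hmapc := card_map_ambR V A
  -- the subgroup `A₁ = C_A(V) V`
  set A₁ := (A ⊓ C) ⊔ V with hA₁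
  have hVC : V ≤ C := IsEA.le_centralizer hV
  have hA₁E : IsElementaryAbelian p A₁ :=
    IsEA.sup (IsEA.mono inf_le_left hA.1) hV (le_centralizer_iff.mp inf_le_right)
  have hA₁C : A₁ ≤ C := sup_le inf_le_right hVC
  have hinf : (A ⊓ C) ⊓ V ≤ V ⊓ centralizer (A : Set G) := by
    intro v hv
    exact ⟨hv.2, IsEA.le_centralizer hA.1 hv.1.1⟩
  have hcard : Nat.card A ≤ Nat.card A₁ := by
    have h1 := card_sup_mul_card_inf (A ⊓ C) V (by rw [normalizer_eq_top V]; exact le_top)
    have h2 : Nat.card ((A ⊓ C) ⊓ V : Subgroup G) ≤ Nat.card ↥(V ⊓ centralizer (A : Set G)) := card_le_of_le hinf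
    have hpos : 0 < Nat.card ↥(V ⊓ centralizer (A : Set G)) := Nat.card_pos
    have h3 : Nat.card A * Nat.card ↥(V ⊓ centralizer (A : Set G)) ≤
        Nat.card A₁ * Nat.card ↥(V ⊓ centralizer (A : Set G)) := by
      calc Nat.card A * Nat.card ↥(V ⊓ centralizer (A : Set G))
          = Nat.card (A.map (ambR V)) * Nat.card ↥(V ⊓ centralizer (A : Set G)) * Nat.card ↥(A ⊓ C) := by
            rw [← hmapc]; ring
        _ = Nat.card ↥(A ⊓ C) * Nat.card V := by rw [hom]; ring
        _ = Nat.card A₁ * Nat.card ((A ⊓ C) ⊓ V : Subgroup G) := h1.symm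
        _ ≤ Nat.card A₁ * Nat.card ↥(V ⊓ centralizer (A : Set G)) := Nat.mul_le_mul_left _ h2
    exact Nat.le_of_mul_le_mul_right h3 hpos
  have hA₁max : A₁ ∈ maxEAin p C :=
    ⟨hA₁C, hA₁E, fun B _ hBE => (hA.2 B hBE).trans hcard⟩
  have hZA : Z₀ ≤ A₁ := by
    rw [hZ₀]
    unfold omegaOne
    rw [closure_le]
    rintro x ⟨hx, hxp⟩
    have hx1 : x ∈ thompsonSubgroupOf p C := hx.1
    have hx2 : x ∈ centralizer (thompsonSubgroupOf p C : Set G) := hx.2
    have hle : A₁ ≤ thompsonSubgroupOf p C := by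
      rw [thompsonOf_eq_sSup]
      exact le_sSup hA₁max
    have hxC : x ∈ C := (map_subtype_le _ : thompsonSubgroupOf p C ≤ C) hx1
    rw [maxEAin_eq_maxAb] at hA₁max
    exact mem_of_mem_maxAb hA₁max hxC (centralizer_le hle hx2) hxp
  refine (commutator_mono hZA le_rfl).trans ?_
  rw [← le_sectionKernel_iff]
  apply sup_le
  · rw [le_sectionKernel_iff]
    have : ⁅A ⊓ C, A⁆ = ⊥ := by
      rw [commutator_eq_bot_iff_le_centralizer]
      exact inf_le_left.trans (IsEA.le_centralizer hA.1)
    rw [this]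
    exact bot_le
  · rw [le_sectionKernel_iff]
    exact commutator_le_left V A

end Cfsg.Agent.Lib.Helper13
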