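import Cfsg.Agent.Lib.Helper13.FF4
import Cfsg.Agent.Lib.Helper13.Glaub2
import Cfsg.Agent.H12.Basic

set_option autoImplicit false
open Cfsg

/-! KS 9.3.7, part 1: the conjugates of a minimal offender under `O_{p'}(H)` have their commutators in one plane. -/

namespace Cfsg.Agent.Lib.Helper13

open Subgroup
open scoped commutatorElement

variable {G : Type*} [Group G] {p : ℕ}

/-- conjugate of a subgroup -/
abbrev cA (A : Subgroup G) (x : G) : Subgroup G := A.map (MulAut.conj x).toMonoidHom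

theorem cA_cA (A : Subgroup G) (x y : G) : cA (cA A x) y = cA A (y * x) := Cfsg.Agent.H12.map_conj_mul y x A

theorem cA_one (A : Subgroup G) : cA A 1 = A := Cfsg.Agent.H12.map_conj_one A

theorem cA_eq_self {A : Subgroup G} {x : G} (hx : x ∈ normalizer (A : Set G)) : cA A x = A :=
  mem_normalizer_iff_map_conj_eq.mp hx

theorem mem_cA {A : Subgroup G} {x a : G} (ha : a ∈ A) : x * a * x⁻¹ ∈ cA A x := ⟨a, ha, rfl⟩

theorem cA_mono {A B : Subgroup G} (h : A ≤ B) (x : G) : cA A x ≤ cA B x := map_mono h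

theorem card_cA (A : Subgroup G) (x : G) : Nat.card (cA A x) = Nat.card A :=
  card_map_of_injective (MulAut.conj x).injective

theorem cA_centralizer (B : Subgroup G) (x : G) :
    cA (centralizer (B : Set G)) x = centralizer ((cA B x : Subgroup G) : Set G) := by
  ext g
  rw [Cfsg.Agent.H12.mem_map_conj, mem_centralizer_iff, mem_centralizer_iff]
  constructor
  · rintro h _ ⟨b, hb, rfl⟩
    have h1 := h b hb
    change x * b * x⁻¹ * g = g * (x * b * x⁻¹)
    calc x * b * x⁻¹ * g = x * (b * (x⁻¹ * g * x)) * x⁻¹ := by group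
      _ = x * ((x⁻¹ * g * x) * b) * x⁻¹ := by rw [h1]
      _ = g * (x * b * x⁻¹) := by group
  · intro h b hb
    have h1 := h (x * b * x⁻¹) (mem_cA hb)
    calc b * (x⁻¹ * g * x) = x⁻¹ * (x * b * x⁻¹ * g) * x := by group
      _ = x⁻¹ * (g * (x * b * x⁻¹)) * x := by rw [h1]
      _ = x⁻¹ * g * x * b := by group

theorem cA_inf (A B : Subgroup G) (x : G) : cA (A ⊓ B) x = cA A x ⊓ cA B x :=
  Subgroup.map_inf _ _ _ (MulAut.conj x).injective

theorem cA_commutator (A B : Subgroup G) (x : G) : cA ⁅A, B⁆ x = ⁅cA A x, cA B x⁆ := map_commutator _ _ _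

theorem bestOffender_cA {V A : Subgroup G} (hA : IsBestOffenderOn p V A) {x : G}
    (hx : x ∈ normalizer (V : Set G)) : IsBestOffenderOn p V (cA A x) := by
  have hV : cA V x = V := cA_eq_self hx
  have hcard : ∀ B : Subgroup G, Nat.card ↥(V ⊓ centralizer ((cA B x : Subgroup G) : Set G)) =
      Nat.card ↥(V ⊓ centralizer (B : Set G)) := by
    intro B
    rw [← cA_centralizer]
    nth_rewrite 1 [← hV]
    rw [← cA_inf, card_cA]
  have hCV : cA (centralizer (V : Set G)) x = centralizer (V : Set G) := by rw [cA_centralizer, hV]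
  refine ⟨?_, ?_, ?_⟩
  · intro B hB
    have h1 : cA (cA B x⁻¹) x = B := by rw [cA_cA, mul_inv_cancel, cA_one]
    have h2 : cA B x⁻¹ ≤ A := by
      have := cA_mono hB x⁻¹
      rwa [cA_cA, inv_mul_cancel, cA_one] at this
    have h3 := hA.1 _ h2
    rw [← h1, hcard, hcard, card_cA, card_cA, card_cA]
    rw [card_cA] at h3
    exact h3
  · rw [← cA_commutator, ← hCV]
    exact cA_mono hA.2.1 x
  · rintro _ ⟨a, ha, rfl⟩
    rw [← hCV]
    refine ⟨a ^ p, hA.2.2 a ha, ?_⟩
    rw [map_pow]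

theorem MinOff.conj {V H A : Subgroup G} (m : MinOff p V H A) {x : G} (hx : x ∈ H) : MinOff p V H (cA A x) := by
  refine ⟨m.h, ?_, bestOffender_cA m.hbo (m.h.hHV hx), by rw [card_cA, m.hcard]⟩
  rintro _ ⟨a, ha, rfl⟩
  exact mul_mem (mul_mem hx (m.hAH ha)) (inv_mem hx)

namespace MinOff

variable {V H A : Subgroup G}

theorem card_comm [Finite G] [Fact p.Prime] (m : MinOff p V H A) : Nat.card ↥⁅V, A⁆ = p :=
  (m.h.of_card_eq m.hAH m.hbo m.hcard).1

theorem relIndex_eq [Finite G] [Fact p.Prime] (m : MinOff p V H A) : (V ⊓ centralizer (A : Set G)).relIndex V = p :=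
  (m.h.of_card_eq m.hAH m.hbo m.hcard).2

theorem comm_le (m : MinOff p V H A) : ⁅V, A⁆ ≤ V :=
  le_normalizer_iff_commutator_le_left.mp (m.hAH.trans m.h.hHV)

/-- two distinct `Q`-conjugates: neither centralizes an element of the centre of the other -/
theorem mem_centralizer_of_inf_ne_bot [Finite G] [Fact p.Prime] (m : MinOff p V H A) {x : G} (hx : x ∈ Qc p H)
    (h : ⁅V, A⁆ ⊓ centralizer ((cA A x : Subgroup G) : Set G) ≠ ⊥) : x ∈ centralizer (A : Set G) := by
  by_contra hxA
  have s := m.setup hx hxA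
  have h1 : ⁅V, A⁆ ≤ centralizer ((cA A x : Subgroup G) : Set G) := by
    rcases eq_bot_or_eq_of_card_prime s.card_comm
      (inf_le_left : ⁅V, A⁆ ⊓ centralizer ((cA A x : Subgroup G) : Set G) ≤ ⁅V, A⁆) with h1 | h1
    · exact absurd h1 h
    · exact inf_eq_left.mp h1
  have c2 := s.comm_comm_eq_bot s.conj_le (IsEA.map _ s.hAE).2 s.card_comm_conj
  have h2 : ⁅V, cA A x⁆ ≤ centralizer ((cA A x : Subgroup G) : Set G) := commutator_eq_bot_iff_le_centralizer.mp c2
  have h3 : cA A x ≤ centralizer ((⁅V, A ⊔ cA A x⁆ : Subgroup G) : Set G) := by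
    rw [le_centralizer_iff, s.W_eq]
    exact sup_le h1 h2
  have h4 : cA A x ≤ ⊥ := s.inf_centralizer_W ▸ le_inf le_sup_right h3
  have h5 : Nat.card (cA A x) = p := s.card_conj
  rw [le_bot_iff.mp h4, card_bot] at h5
  exact (Fact.out : p.Prime).one_lt.ne h5

/-- a plane in `V` meets the fixed points of a minimal offender -/
theorem inf_centralizer_ne_bot [Finite G] [Fact p.Prime] (m : MinOff p V H A) {W : Subgroup G} (hW : W ≤ V)
    (hc : Nat.card W = p ^ 2) : W ⊓ centralizer (A : Set G) ≠ ⊥ := by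
  intro hbot
  set X := V ⊓ centralizer (A : Set G) with hX
  have hn : W ≤ normalizer (X : Set G) := by
    refine le_trans ?_ (centralizer_le_normalizer _)
    exact (hW.trans (IsEA.le_centralizer m.h.hV)).trans (centralizer_le inf_le_left)
  have h1 := card_sup_mul_card_inf W X hn
  have h2 : W ⊓ X = ⊥ := by
    rw [eq_bot_iff, ← hbot]
    exact le_inf inf_le_left (inf_le_right.trans inf_le_right)
  rw [h2, card_bot, mul_one, hc] at h1
  have h3 : Nat.card (W ⊔ X : Subgroup G) ≤ Nat.card V := card_le_of_le (sup_le hW inf_le_left)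
  have h4 := relIndex_mul_card' (inf_le_left : X ≤ V)
  rw [m.relIndex_eq] at h4
  rw [h1, ← h4] at h3
  have hp : 1 < p := (Fact.out : p.Prime).one_lt
  have hpos : 0 < Nat.card X := Nat.card_pos
  nlinarith

end MinOff

theorem eq_zpowers_of_card_prime [Finite G] [Fact p.Prime] {U : Subgroup G} (hU : Nat.card U = p) {c : G} (hc : c ∈ U)
    (hc1 : c ≠ 1) : U = zpowers c := by
  rcases eq_bot_or_eq_of_card_prime hU (zpowers_le.mpr hc) with h | h
  · exact absurd (zpowers_eq_bot.mp h) hc1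
  · exact h.symm

namespace SLSetup

variable {V H A : Subgroup G} {x : G}

theorem minOff (s : SLSetup p V H A x) : MinOff p V H A := ⟨s.h, s.hAH, s.hbo, s.hcard⟩

/-- every element of the plane lies in the centre of some conjugate of `A` inside `L` -/
theorem exists_conj_of_mem [Finite G] [Fact p.Prime] (s : SLSetup p V H A x) {w : G} (hw : w ∈ ⁅V, A ⊔ cA A x⁆) :
    ∃ q ∈ Qc p H, cA A q ≤ A ⊔ cA A x ∧ w ∈ ⁅V, cA A q⁆ := by
  rw [s.W_eq] at hw
  have hn : ⁅V, A⁆ ≤ normalizer ((⁅V, cA A x⁆ : Subgroup G) : Set G) := by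
    refine le_trans ?_ (centralizer_le_normalizer _)
    exact ((s.comm_le s.hAH).trans (IsEA.le_centralizer s.h.hV)).trans (centralizer_le (s.comm_le s.conj_le))
  obtain ⟨u, hu, u', hu', rfl⟩ := mem_sup_of_le_normalizer hn hw
  by_cases hu1 : u' = 1
  · refine ⟨1, one_mem _, by rw [cA_one]; exact le_sup_left, ?_⟩
    rw [cA_one, hu1, mul_one]
    exact hu
  · obtain ⟨a₀, ha₀, hA₀⟩ := exists_zpowers_eq_of_card_prime s.hcard
    have hu'V : u' ∈ V := s.comm_le s.conj_le hu'
    set c := ⁅a₀, u'⁆ with hc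
    have hcU : c ∈ ⁅V, A⁆ := by
      rw [hc, ← commutatorElement_inv]
      exact inv_mem (commutator_mem_commutator hu'V ha₀)
    have c1 := s.comm_comm_eq_bot s.hAH s.hAE.2 s.card_comm
    have c2 := s.comm_comm_eq_bot s.conj_le (IsEA.map _ s.hAE).2 s.card_comm_conj
    have hc1 : c ≠ 1 := by
      intro h
      have h1 : a₀ * u' = u' * a₀ := commutatorElement_eq_one_iff_mul_comm.mp h
      have h2 : ⁅V, cA A x⁆ ≤ centralizer (A : Set G) := by
        rw [eq_zpowers_of_card_prime s.card_comm_conj hu' hu1, zpowers_le, ← hA₀, mem_centralizer_iff]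
        rintro _ ⟨k, rfl⟩
        exact (Commute.zpow_left (show Commute a₀ u' from h1) k)
      have h3 : A ≤ centralizer ((⁅V, A ⊔ cA A x⁆ : Subgroup G) : Set G) := by
        rw [le_centralizer_iff, s.W_eq]
        exact _root_.sup_le (commutator_eq_bot_iff_le_centralizer.mp c1) h2
      have h4 : A ≤ ⊥ := s.inf_centralizer_W ▸ le_inf le_sup_left h3
      have h5 := s.hcard
      rw [le_bot_iff.mp h4, card_bot] at h5
      exact (Fact.out : p.Prime).one_lt.ne h5
    have hUc := eq_zpowers_of_card_prime s.card_comm hcU hc1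
    rw [hUc] at hu
    obtain ⟨k, rfl⟩ := hu
    -- reduce to a natural exponent
    have hcp : c ^ p = 1 := s.h.hV.2 c (s.comm_le s.hAH hcU)
    obtain ⟨n, hn⟩ : ∃ n : ℕ, c ^ k = c ^ n := by
      refine ⟨(k % p).toNat, ?_⟩
      have hp0 : (p : ℤ) ≠ 0 := by exact_mod_cast (Fact.out : p.Prime).ne_zero
      have h1 : ((k % p).toNat : ℤ) = k % p := Int.toNat_of_nonneg (Int.emod_nonneg k hp0)
      rw [← zpow_natCast, h1]
      conv_lhs => rw [← Int.emod_add_mul_ediv k p]
      rw [zpow_add, zpow_mul, zpow_natCast, hcp, one_zpow, mul_one]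
    have cc1 : Commute c u' := IsEA.comm s.h.hV (s.comm_le s.hAH hcU) hu'V
    have cc2 : Commute c a₀ := by
      have := commutator_eq_bot_iff_le_centralizer.mp c1 hcU
      exact (mem_centralizer_iff.mp this a₀ ha₀).symm
    have h2 := Cfsg.H1.commutator_pow_left_of_central cc1 cc2 n
    have han : a₀ ^ n ∈ A := pow_mem ha₀ n
    set a := a₀ ^ n with ha
    have hw' : c ^ k * u' = a * u' * a⁻¹ := by
      rw [hn, ← h2, commutatorElement_def]
      group
    refine ⟨a * x * a⁻¹, conj_mem_of_mem_normalizer (le_normalizer_Qc H (s.hAH han)) s.hx, ?_, ?_⟩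
    · have h3 : cA A (a * x * a⁻¹) = cA (cA A x) a := by
        rw [cA_cA, ← cA_cA A a⁻¹ (a * x), cA_eq_self (le_normalizer (inv_mem han))]
      rw [h3]
      rintro _ ⟨b, hb, rfl⟩
      exact mul_mem (mul_mem (mem_sup_left han) (mem_sup_right hb)) (inv_mem (mem_sup_left han))
    · have h3 : cA A (a * x * a⁻¹) = cA (cA A x) a := by
        rw [cA_cA, ← cA_cA A a⁻¹ (a * x), cA_eq_self (le_normalizer (inv_mem han))]
      have h4 : cA V a = V := cA_eq_self (s.h.hHV (s.hAH han))
      rw [h3]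
      nth_rewrite 1 [← h4]
      rw [← cA_commutator]
      change c ^ k * u' ∈ _
      rw [hw']
      exact mem_cA hu'

end SLSetup

end Cfsg.Agent.Lib.Helper13
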