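import Cfsg.Agent.Lib.Helper13.FF5
import Cfsg.Agent.Lib.Helper13.SLRep

set_option autoImplicit false
open Cfsg

/-! KS 9.3.7, part 2: `E = [O_{p'}(H), A] A ≅ SL(2, p)`. -/

namespace Cfsg.Agent.Lib.Helper13

open Subgroup
open scoped commutatorElement

variable {G : Type*} [Group G] {p : ℕ}

/-- a group generated by elements of order `p` acting on a plane maps to `SL(2, p)` -/
theorem exists_hom_SL2 [Finite G] [Fact p.Prime] {W D : Subgroup G} (hW : IsElementaryAbelian p W)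
    (hcard : Nat.card W = p ^ 2) (hDW : D ≤ normalizer (W : Set G)) (S : Set G) (hS : ∀ g ∈ S, g ∈ D ∧ g ^ p = 1)
    (hgen : D ≤ closure S) :
    ∃ ρ : D →* Matrix.SpecialLinearGroup (Fin 2) (ZMod p), ∀ g : D, ρ g = 1 ↔ (g : G) ∈ centralizer (W : Set G) := by
  obtain ⟨ρ₀, hρ₀⟩ := exists_rep_of_le_normalizer hW hcard hDW
  let d : D →* ZMod p := Matrix.detMonoidHom.comp ρ₀
  have hd1 : ∀ g : D, g ^ p = 1 → d g = 1 := by
    intro g hg
    have h1 : d g ^ p = 1 := by rw [← map_pow, hg, map_one]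
    rwa [ZMod.pow_card] at h1
  have hle : closure S ≤ (d.ker).map D.subtype := by
    rw [closure_le]
    intro g hg
    exact ⟨⟨g, (hS g hg).1⟩, hd1 _ (Subtype.ext (hS g hg).2), rfl⟩
  have hdet : ∀ g : D, (ρ₀ g).det = 1 := by
    intro g
    obtain ⟨k, hk, hkg⟩ := hle (hgen g.2)
    have : k = g := Subtype.ext hkg
    rw [← this]
    exact hk
  let ρ : D →* Matrix.SpecialLinearGroup (Fin 2) (ZMod p) :=
    { toFun := fun g => ⟨ρ₀ g, hdet g⟩
      map_one' := Subtype.ext (map_one ρ₀)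
      map_mul' := fun g h => Subtype.ext (map_mul ρ₀ g h) }
  refine ⟨ρ, fun g => ?_⟩
  rw [← hρ₀ g]
  constructor
  · intro h
    exact congrArg Subtype.val h
  · intro h
    exact Subtype.ext h

theorem mem_chainStab_of [Finite G] {V W : Subgroup G} (hWV : W ≤ V) {b : G} (h : ∀ v ∈ V, ⁅v, b⁆ ∈ W) :
    b ∈ chainStab V W := by
  refine ⟨mem_normalizer_of_conj_mem ?_, h⟩
  intro w hw
  have h1 : b * w * b⁻¹ = (⁅w, b⁆)⁻¹ * w := by
    rw [commutatorElement_def]; group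
  rw [h1]
  exact mul_mem (inv_mem (h w (hWV hw))) hw

theorem cA_le_EE {Q A : Subgroup G} {q : G} (hq : q ∈ Q) : cA A q ≤ ⁅Q, A⁆ ⊔ A := by
  rintro _ ⟨a, ha, rfl⟩
  have h2 : (MulAut.conj q).toMonoidHom a = ⁅q, a⁆ * a := by
    simp [commutatorElement_def]
  rw [h2]
  exact Subgroup.mul_mem _ (mem_sup_left (commutator_mem_commutator hq ha)) (mem_sup_right ha)

theorem EE_le_closure (Q A : Subgroup G) : ⁅Q, A⁆ ⊔ A ≤ closure {g | ∃ q ∈ Q, g ∈ cA A q} := by
  have hA : A ≤ closure {g | ∃ q ∈ Q, g ∈ cA A q} := by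
    intro a ha
    exact subset_closure ⟨1, one_mem _, by rw [cA_one]; exact ha⟩
  refine sup_le ?_ hA
  rw [commutator_le]
  intro q hq a ha
  have h2 : ⁅q, a⁆ = (q * a * q⁻¹) * a⁻¹ := by rw [commutatorElement_def]
  rw [h2]
  exact mul_mem (subset_closure ⟨q, hq, mem_cA ha⟩) (inv_mem (hA ha))

namespace SLSetup

variable {V H A : Subgroup G} {x : G}

/-- all `Q`-conjugates of `A` have their centre in the plane -/
theorem comm_cA_le [Finite G] [Fact p.Prime] (s : SLSetup p V H A x) {y : G} (hy : y ∈ Qc p H) :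
    ⁅V, cA A y⁆ ≤ ⁅V, A ⊔ cA A x⁆ := by
  have mB := s.minOff.conj (Qc_le H hy)
  have hWV : ⁅V, A ⊔ cA A x⁆ ≤ V := s.comm_le s.sup_le
  have hne := mB.inf_centralizer_ne_bot hWV s.card_W
  obtain ⟨⟨w, hw⟩, hw1⟩ := Subgroup.ne_bot_iff_exists_ne_one.mp hne
  have hw1' : w ≠ 1 := fun h => hw1 (Subtype.ext h)
  obtain ⟨q, hq, hqL, hwq⟩ := s.exists_conj_of_mem hw.1
  have m₄ := s.minOff.conj (Qc_le H hq)
  have hB : cA A y = cA (cA A q) (y * q⁻¹) := by rw [cA_cA, inv_mul_cancel_right]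
  have h1 : y * q⁻¹ ∈ centralizer ((cA A q : Subgroup G) : Set G) := by
    apply m₄.mem_centralizer_of_inf_ne_bot (mul_mem hy (inv_mem hq))
    rw [← hB]
    intro hbot
    apply hw1'
    have : w ∈ ⁅V, cA A q⁆ ⊓ centralizer ((cA A y : Subgroup G) : Set G) := ⟨hwq, hw.2⟩
    rwa [hbot, mem_bot] at this
  have h2 : cA A y = cA A q := by rw [hB, cA_eq_self (centralizer_le_normalizer _ h1)]
  rw [h2]
  exact commutator_mono le_rfl hqL

theorem cA_le_chainStab [Finite G] [Fact p.Prime] (s : SLSetup p V H A x) {y : G} (hy : y ∈ Qc p H) :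
    cA A y ≤ chainStab V ⁅V, A ⊔ cA A x⁆ := by
  intro b hb
  apply mem_chainStab_of (s.comm_le s.sup_le)
  intro v hv
  exact s.comm_cA_le hy (commutator_mem_commutator hv hb)

theorem EE_le_chainStab [Finite G] [Fact p.Prime] (s : SLSetup p V H A x) :
    ⁅Qc p H, A⁆ ⊔ A ≤ chainStab V ⁅V, A ⊔ cA A x⁆ := by
  refine (EE_le_closure _ _).trans ?_
  rw [closure_le]
  rintro g ⟨q, hq, hg⟩
  exact s.cA_le_chainStab hq hg

theorem L_le_EE (s : SLSetup p V H A x) : A ⊔ cA A x ≤ ⁅Qc p H, A⁆ ⊔ A :=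
  _root_.sup_le le_sup_right (cA_le_EE s.hx)

theorem EE_le_H (s : SLSetup p V H A x) : ⁅Qc p H, A⁆ ⊔ A ≤ H :=
  _root_.sup_le ((commutator_mono (Qc_le H) s.hAH).trans (commutator_le_self H)) s.hAH

theorem EE_le_sup (s : SLSetup p V H A x) : ⁅Qc p H, A⁆ ⊔ A ≤ A ⊔ Qc p H :=
  _root_.sup_le ((le_normalizer_iff_commutator_le_left.mp (s.hAH.trans (le_normalizer_Qc H))).trans le_sup_right)
    le_sup_left

theorem comm_EE [Finite G] [Fact p.Prime] (s : SLSetup p V H A x) :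
    ⁅V, ⁅Qc p H, A⁆ ⊔ A⁆ = ⁅V, A ⊔ cA A x⁆ :=
  le_antisymm ((commutator_mono le_rfl s.EE_le_chainStab).trans (commutator_chainStab_le _ _))
    (commutator_mono le_rfl s.L_le_EE)

/-- faithfulness on the plane for overgroups of `L` inside `A Q` acting trivially on `V / W` -/
theorem inf_centralizer_eq_bot_of [Finite G] [Fact p.Prime] (s : SLSetup p V H A x) {D : Subgroup G}
    (hLD : A ⊔ cA A x ≤ D) (hDQ : D ≤ A ⊔ Qc p H) (hDH : D ≤ H) (hD : D ≤ chainStab V ⁅V, A ⊔ cA A x⁆) :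
    D ⊓ centralizer ((⁅V, A ⊔ cA A x⁆ : Subgroup G) : Set G) = ⊥ := by
  set W := ⁅V, A ⊔ cA A x⁆ with hW
  set K := D ⊓ centralizer (W : Set G) with hK
  have hWV : W ≤ V := s.comm_le s.sup_le
  have hKp : ∀ k ∈ K, k ^ p = 1 := by
    intro k hk
    have h1 : k ^ p ∈ H ⊓ centralizer (V : Set G) := by
      refine mem_inf.mpr ⟨pow_mem (hDH hk.1) p, ?_⟩
      rw [mem_centralizer_iff]
      intro v hv
      have hw : ⁅k, v⁆ ∈ W := by
        rw [← commutatorElement_inv]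
        exact inv_mem ((hD hk.1).2 v hv)
      have c1 : Commute ⁅k, v⁆ v := IsEA.comm s.h.hV (hWV hw) hv
      have c2 : Commute ⁅k, v⁆ k := mem_centralizer_iff.mp hk.2 _ hw
      have h2 := Cfsg.H1.commutator_pow_left_of_central c1 c2 p
      rw [s.h.hV.2 _ (hWV hw)] at h2
      exact (commutatorElement_eq_one_iff_mul_comm.mp h2).symm
    rwa [s.h.hf, mem_bot] at h1
  have hKpg : IsPGroup p K := fun k => ⟨1, Subtype.ext (by rw [pow_one]; exact hKp k.1 k.2)⟩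
  have hDK : D ≤ normalizer (K : Set G) := by
    have h1 : D ≤ normalizer (W : Set G) := fun d hd => (hD hd).1
    exact (le_inf le_normalizer (h1.trans (normalizer_le_normalizer_centralizer W))).trans
      inf_normalizer_le_normalizer_inf
  have key : ∀ B : Subgroup G, B ≤ D → IsPGroup p B → Nat.card B = p → K ≤ B := by
    intro B hBL hBp hBc
    have h1 : IsPGroup p (B ⊔ K : Subgroup G) := hBp.to_sup_of_normal_right' hKpg (hBL.trans hDK)
    have h2 := s.card_dvd_of_isPGroup h1 ((_root_.sup_le hBL inf_le_left).trans hDQ)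
    have h3 : B = B ⊔ K := eq_of_le_of_card_ge le_sup_left (by rw [hBc]; exact Nat.le_of_dvd (Fact.out : p.Prime).pos h2)
    rw [h3]
    exact le_sup_right
  have h1 := key A (le_sup_left.trans hLD) (IsEA.isPGroup s.hAE) s.hcard
  have h2 := key (cA A x) (le_sup_right.trans hLD) (IsEA.isPGroup (IsEA.map _ s.hAE)) s.card_conj
  exact le_bot_iff.mp (s.inf_conj ▸ le_inf h1 h2)

theorem isEA_W (s : SLSetup p V H A x) : IsElementaryAbelian p ⁅V, A ⊔ cA A x⁆ :=
  IsEA.mono (s.comm_le s.sup_le) s.h.hV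

/-- `E = L` -/
theorem EE_eq [Finite G] [Fact p.Prime] (s : SLSetup p V H A x) : ⁅Qc p H, A⁆ ⊔ A = A ⊔ cA A x := by
  symm
  apply eq_of_le_of_card_ge s.L_le_EE
  have hf := s.inf_centralizer_eq_bot_of s.L_le_EE s.EE_le_sup s.EE_le_H s.EE_le_chainStab
  obtain ⟨ρ, hρ⟩ := exists_hom_SL2 s.isEA_W s.card_W (fun d hd => (s.EE_le_chainStab hd).1)
    {g | ∃ q ∈ Qc p H, g ∈ cA A q} (by
      rintro g ⟨q, hq, hg⟩
      exact ⟨cA_le_EE hq hg, (IsEA.map _ s.hAE).2 g hg⟩) (EE_le_closure _ _)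
  have hinj : Function.Injective ρ := by
    rw [injective_iff_map_eq_one]
    intro g hg
    have h2 : (g : G) ∈ (⁅Qc p H, A⁆ ⊔ A) ⊓ centralizer ((⁅V, A ⊔ cA A x⁆ : Subgroup G) : Set G) :=
      ⟨g.2, (hρ g).mp hg⟩
    rw [hf, mem_bot] at h2
    exact Subtype.ext h2
  obtain ⟨φ⟩ := s.nonempty_equiv
  rw [Nat.card_congr φ.toEquiv]
  exact Nat.card_le_card_of_injective ρ hinj

end SLSetup

end Cfsg.Agent.Lib.Helper13
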