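import Cfsg.Agent.Lib.Helper13.FF6

set_option autoImplicit false
open Cfsg

/-! KS 9.3.7, part 3: `V = [V, E] × C_V(E)` and `H = E × C_H([V, E])`. -/

namespace Cfsg.Agent.Lib.Helper13

open Subgroup
open scoped commutatorElement

variable {G : Type*} [Group G] {p : ℕ}

theorem mem_centralizer_sup {A B : Subgroup G} {y : G} (hA : y ∈ centralizer (A : Set G))
    (hB : y ∈ centralizer (B : Set G)) : y ∈ centralizer ((A ⊔ B : Subgroup G) : Set G) := by
  have h1 : A ≤ centralizer ((zpowers y : Subgroup G) : Set G) := le_centralizer_iff.mp (zpowers_le.mpr hA)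
  have h2 : B ≤ centralizer ((zpowers y : Subgroup G) : Set G) := le_centralizer_iff.mp (zpowers_le.mpr hB)
  exact le_centralizer_iff.mp (sup_le h1 h2) (mem_zpowers y)

namespace SLSetup

variable {V H A : Subgroup G} {x : G}

theorem W_inf_centralizer [Finite G] [Fact p.Prime] (s : SLSetup p V H A x) :
    ⁅V, A ⊔ cA A x⁆ ⊓ (V ⊓ centralizer ((A ⊔ cA A x : Subgroup G) : Set G)) = ⊥ := by
  rw [eq_bot_iff]
  intro w hw
  rw [mem_bot]
  by_contra hw1
  obtain ⟨q, hq, hqL, hwq⟩ := s.exists_conj_of_mem hw.1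
  have mq := s.minOff.conj (Qc_le H hq)
  obtain ⟨x', hx', hx'A⟩ := mq.exists_not_mem
  apply hx'A
  apply mq.mem_centralizer_of_inf_ne_bot hx'
  intro hbot
  apply hw1
  have h1 : cA (cA A q) x' ≤ A ⊔ cA A x := by
    rw [cA_cA, ← s.EE_eq]
    exact cA_le_EE (mul_mem hx' hq)
  have : w ∈ ⁅V, cA A q⁆ ⊓ centralizer ((cA (cA A q) x' : Subgroup G) : Set G) :=
    ⟨hwq, centralizer_le h1 hw.2.2⟩
  rwa [hbot, mem_bot] at this

theorem W_sup_centralizer [Finite G] [Fact p.Prime] (s : SLSetup p V H A x) :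
    ⁅V, A ⊔ cA A x⁆ ⊔ (V ⊓ centralizer ((A ⊔ cA A x : Subgroup G) : Set G)) = V := by
  set W := ⁅V, A ⊔ cA A x⁆ with hW
  set Y := V ⊓ centralizer ((A ⊔ cA A x : Subgroup G) : Set G) with hY
  set X := V ⊓ centralizer (A : Set G) with hX
  set X' := V ⊓ centralizer ((cA A x : Subgroup G) : Set G) with hX'
  have hWV : W ≤ V := s.comm_le s.sup_le
  have hab : ∀ S T : Subgroup G, S ≤ V → T ≤ V → S ≤ normalizer (T : Set G) := by
    intro S T hS hT
    refine le_trans ?_ (centralizer_le_normalizer _)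
    exact (hS.trans (IsEA.le_centralizer s.h.hV)).trans (centralizer_le hT)
  apply eq_of_le_of_card_ge (_root_.sup_le hWV inf_le_left)
  have h1 := card_sup_mul_card_inf W Y (hab W Y hWV inf_le_left)
  rw [s.W_inf_centralizer, card_bot, mul_one, s.card_W] at h1
  have h2 := card_sup_mul_card_inf X X' (hab X X' inf_le_left inf_le_left)
  have h3 : Nat.card (X ⊔ X' : Subgroup G) ≤ Nat.card V := card_le_of_le (_root_.sup_le inf_le_left inf_le_left)
  have h4 := relIndex_mul_card' (inf_le_left : X ≤ V)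
  rw [s.minOff.relIndex_eq] at h4
  have h5 := relIndex_mul_card' (inf_le_left : X' ≤ V)
  rw [(s.minOff.conj s.hxH).relIndex_eq] at h5
  have h6 : Nat.card (X ⊓ X' : Subgroup G) ≤ Nat.card Y := by
    apply card_le_of_le
    intro y hy
    exact ⟨hy.1.1, mem_centralizer_sup hy.1.2 hy.2.2⟩
  rw [h1]
  have hpos : 0 < Nat.card X := Nat.card_pos
  have hp : 0 < p := (Fact.out : p.Prime).pos
  -- `|X| |X'| ≤ |V| |X ⊓ X'|`
  have h7 : Nat.card X * Nat.card X' ≤ Nat.card V * Nat.card (X ⊓ X' : Subgroup G) := by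
    rw [← h2]
    exact Nat.mul_le_mul_right _ h3
  rw [← h4] at h7
  have h8 : Nat.card X' ≤ p * Nat.card (X ⊓ X' : Subgroup G) := by
    have : Nat.card X * Nat.card X' ≤ Nat.card X * (p * Nat.card (X ⊓ X' : Subgroup G)) := by
      calc Nat.card X * Nat.card X' ≤ p * Nat.card X * Nat.card (X ⊓ X' : Subgroup G) := h7
        _ = Nat.card X * (p * Nat.card (X ⊓ X' : Subgroup G)) := by ring
    exact Nat.le_of_mul_le_mul_left this hpos
  calc Nat.card V = p * Nat.card X' := h5.symm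
    _ ≤ p * (p * Nat.card (X ⊓ X' : Subgroup G)) := Nat.mul_le_mul_left _ h8
    _ ≤ p * (p * Nat.card Y) := Nat.mul_le_mul_left _ (Nat.mul_le_mul_left _ h6)
    _ = p ^ 2 * Nat.card Y := by ring

theorem Qc_le_normalizer_W [Finite G] [Fact p.Prime] (s : SLSetup p V H A x) :
    Qc p H ≤ normalizer ((⁅V, A ⊔ cA A x⁆ : Subgroup G) : Set G) := by
  intro q hq
  apply mem_normalizer_of_conj_mem
  intro w hw
  have h1 : q * w * q⁻¹ ∈ cA ⁅V, A ⊔ cA A x⁆ q := mem_cA hw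
  have hV : cA V q = V := cA_eq_self (s.h.hHV (Qc_le H hq))
  have h2 : cA ⁅V, A ⊔ cA A x⁆ q ≤ ⁅V, A ⊔ cA A x⁆ := by
    nth_rewrite 1 [s.W_eq]
    change Subgroup.map _ _ ≤ _
    rw [Subgroup.map_sup]
    apply _root_.sup_le
    · change cA ⁅V, A⁆ q ≤ _
      rw [cA_commutator, hV]
      exact s.comm_cA_le hq
    · change cA ⁅V, cA A x⁆ q ≤ _
      rw [cA_commutator, hV, cA_cA]
      exact s.comm_cA_le (mul_mem hq s.hx)
  exact h2 h1

/-- `Q` acts irreducibly on the plane -/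
theorem eq_W_of_invariant [Finite G] [Fact p.Prime] (s : SLSetup p V H A x) {X : Subgroup G}
    (hX1 : X ⊓ ⁅V, A ⊔ cA A x⁆ ≠ ⊥) (hQX : Qc p H ≤ normalizer (X : Set G)) : ⁅V, A ⊔ cA A x⁆ ≤ X := by
  obtain ⟨⟨w, hw⟩, hw1⟩ := Subgroup.ne_bot_iff_exists_ne_one.mp hX1
  have hw1' : w ≠ 1 := fun h => hw1 (Subtype.ext h)
  obtain ⟨q, hq, -, hwq⟩ := s.exists_conj_of_mem hw.2
  have mq := s.minOff.conj (Qc_le H hq)
  have h1 : ⁅V, cA A q⁆ ≤ X := by
    rw [eq_zpowers_of_card_prime mq.card_comm hwq hw1', zpowers_le]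
    exact hw.1
  have key : ∀ y ∈ Qc p H, ⁅V, cA A y⁆ ≤ X := by
    intro y hy
    have hyq : y * q⁻¹ ∈ Qc p H := mul_mem hy (inv_mem hq)
    have hV : cA V (y * q⁻¹) = V := cA_eq_self (s.h.hHV (Qc_le H hyq))
    have h2 : ⁅V, cA A y⁆ = cA ⁅V, cA A q⁆ (y * q⁻¹) := by
      rw [cA_commutator, hV, cA_cA, inv_mul_cancel_right]
    rw [h2, ← cA_eq_self (hQX hyq)]
    exact cA_mono h1 _
  rw [s.W_eq]
  refine _root_.sup_le ?_ (key x s.hx)
  have := key 1 (one_mem _)
  rwa [cA_one] at this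

theorem minOff_le_normalizer_W [Finite G] [Fact p.Prime] (s : SLSetup p V H A x) {B : Subgroup G}
    (mB : MinOff p V H B) : B ≤ normalizer ((⁅V, A ⊔ cA A x⁆ : Subgroup G) : Set G) := by
  set W := ⁅V, A ⊔ cA A x⁆ with hW
  have hWV : W ≤ V := s.comm_le s.sup_le
  have key : ∀ b ∈ B, W ≤ cA W b := by
    intro b hb
    apply s.eq_W_of_invariant
    · obtain ⟨⟨w, hw⟩, hw1⟩ := Subgroup.ne_bot_iff_exists_ne_one.mp (mB.inf_centralizer_ne_bot hWV s.card_W)
      have hw1' : w ≠ 1 := fun h => hw1 (Subtype.ext h)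
      intro hbot
      apply hw1'
      have h1 : b * w * b⁻¹ = w := by
        rw [(mem_centralizer_iff.mp hw.2 b hb), mul_inv_cancel_right]
      have : w ∈ cA W b ⊓ W := ⟨h1 ▸ mem_cA hw.1, hw.1⟩
      rwa [hbot, mem_bot] at this
    · intro q hq
      have hbH : b ∈ H := mB.hAH hb
      have h1 : b⁻¹ * q * b ∈ Qc p H := by
        have := conj_mem_of_mem_normalizer (le_normalizer_Qc H (inv_mem hbH)) hq
        rwa [inv_inv] at this
      rw [mem_normalizer_iff_map_conj_eq]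
      change cA (cA W b) q = cA W b
      have h2 : q * b = b * (b⁻¹ * q * b) := by group
      rw [cA_cA, h2, ← cA_cA, cA_eq_self (s.Qc_le_normalizer_W h1)]
  intro b hb
  rw [mem_normalizer_iff_map_conj_eq]
  exact (eq_of_le_of_card_ge (key b hb) (by rw [card_cA])).symm

end SLSetup

theorem FFSetup.le_closure_minOff [Finite G] [Fact p.Prime] {V H : Subgroup G} (h : FFSetup p V H)
    (hS3 : H = ⨆ A : {A : Subgroup G // A ≤ H ∧ IsBestOffenderOn p V A}, (A : Subgroup G)) :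
    H ≤ closure {b | ∃ B, MinOff p V H B ∧ b ∈ B} := by
  nth_rewrite 1 [hS3]
  apply iSup_le
  rintro ⟨A, hA, hbo⟩
  obtain ⟨k, B, hB, -, hsup⟩ := h.exists_decomp A hA hbo
  change A ≤ _
  rw [← hsup]
  apply iSup_le
  intro i b hb
  exact subset_closure ⟨B i, ⟨h, (hB i).1.trans hA, (hB i).2.1, (hB i).2.2⟩, hb⟩

end Cfsg.Agent.Lib.Helper13
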