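import Cfsg.Agent.Lib.Helper13.FF7
import Cfsg.Agent.H12.Cores

set_option autoImplicit false
open Cfsg

/-! KS 9.3.7, part 4: `H = E × C_H([V, E])`. -/

namespace Cfsg.Agent.Lib.Helper13

open Subgroup
open scoped commutatorElement

variable {G : Type*} [Group G] {p : ℕ}

/-- generation by best offenders -/
def GenOff (p : ℕ) (V H : Subgroup G) : Prop :=
  H = ⨆ A : {A : Subgroup G // A ≤ H ∧ IsBestOffenderOn p V A}, (A : Subgroup G)

namespace SLSetup

variable {V H A : Subgroup G} {x : G}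

theorem H_le_normalizer_W [Finite G] [Fact p.Prime] (s : SLSetup p V H A x) (hS3 : GenOff p V H) :
    H ≤ normalizer ((⁅V, A ⊔ cA A x⁆ : Subgroup G) : Set G) := by
  refine (s.h.le_closure_minOff hS3).trans ?_
  rw [closure_le]
  rintro b ⟨B, mB, hb⟩
  exact s.minOff_le_normalizer_W mB hb

theorem exists_hom_H [Finite G] [Fact p.Prime] (s : SLSetup p V H A x) (hS3 : GenOff p V H) :
    ∃ ρ : H →* Matrix.SpecialLinearGroup (Fin 2) (ZMod p),
      ∀ g : H, ρ g = 1 ↔ (g : G) ∈ centralizer ((⁅V, A ⊔ cA A x⁆ : Subgroup G) : Set G) :=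
  exists_hom_SL2 s.isEA_W s.card_W (s.H_le_normalizer_W hS3) {b | ∃ B, MinOff p V H B ∧ b ∈ B}
    (by
      rintro b ⟨B, mB, hb⟩
      exact ⟨mB.hAH hb, mB.hAE.2 b hb⟩) (s.h.le_closure_minOff hS3)

theorem H_le_normalizer_chainStab [Finite G] [Fact p.Prime] (s : SLSetup p V H A x) (hS3 : GenOff p V H) :
    H ≤ normalizer ((chainStab V ⁅V, A ⊔ cA A x⁆ : Subgroup G) : Set G) := by
  intro h hh
  apply mem_normalizer_of_conj_mem
  intro d hd
  exact conj_mem_chainStab (s.h.hHV hh) (s.H_le_normalizer_W hS3 hh) hd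

theorem L_eq_inf_chainStab [Finite G] [Fact p.Prime] (s : SLSetup p V H A x) (hS3 : GenOff p V H) :
    A ⊔ cA A x = H ⊓ chainStab V ⁅V, A ⊔ cA A x⁆ := by
  set W := ⁅V, A ⊔ cA A x⁆ with hW
  set M := H ⊓ chainStab V W with hM
  have hWV : W ≤ V := s.comm_le s.sup_le
  have hLM : A ⊔ cA A x ≤ M := le_inf s.sup_le (s.EE_eq ▸ s.EE_le_chainStab)
  set K := M ⊓ centralizer (W : Set G) with hK
  have hKp : ∀ k ∈ K, k ^ p = 1 := by
    intro k hk
    have h1 : k ^ p ∈ H ⊓ centralizer (V : Set G) := by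
      refine mem_inf.mpr ⟨pow_mem hk.1.1 p, ?_⟩
      rw [mem_centralizer_iff]
      intro v hv
      have hw : ⁅k, v⁆ ∈ W := by
        rw [← commutatorElement_inv]
        exact inv_mem (hk.1.2.2 v hv)
      have c1 : Commute ⁅k, v⁆ v := IsEA.comm s.h.hV (hWV hw) hv
      have c2 : Commute ⁅k, v⁆ k := mem_centralizer_iff.mp hk.2 _ hw
      have h2 := Cfsg.H1.commutator_pow_left_of_central c1 c2 p
      rw [s.h.hV.2 _ (hWV hw)] at h2
      exact (commutatorElement_eq_one_iff_mul_comm.mp h2).symm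
    rwa [s.h.hf, mem_bot] at h1
  have hKpg : IsPGroup p K := fun k => ⟨1, Subtype.ext (by rw [pow_one]; exact hKp k.1 k.2)⟩
  have hHK : H ≤ normalizer (K : Set G) := by
    have h1 : H ≤ normalizer (M : Set G) :=
      (le_inf le_normalizer (s.H_le_normalizer_chainStab hS3)).trans inf_normalizer_le_normalizer_inf
    have h2 : H ≤ normalizer ((centralizer (W : Set G) : Subgroup G) : Set G) :=
      (s.H_le_normalizer_W hS3).trans (normalizer_le_normalizer_centralizer W)
    exact (le_inf h1 h2).trans inf_normalizer_le_normalizer_inf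
  have hKH : K ≤ H := inf_le_left.trans inf_le_left
  have hKQ : K ⊓ Qc p H = ⊥ := Cfsg.Agent.H12.inf_eq_bot_of_pGroup_of_coprime hKpg (Qc_coprime H)
  have hcomm : ⁅K, Qc p H⁆ = ⊥ := by
    rw [eq_bot_iff, ← hKQ]
    exact le_inf (le_normalizer_iff_commutator_le_left.mp ((Qc_le H).trans hHK))
      (le_normalizer_iff_commutator_le_right.mp (hKH.trans (le_normalizer_Qc H)))
  have hKbot : K = ⊥ := by
    have h1 : K ≤ Qc p H := (le_inf hKH (commutator_eq_bot_iff_le_centralizer.mp hcomm)).trans s.h.cent_Qc_le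
    rw [eq_bot_iff, ← hKQ]
    exact le_inf le_rfl h1
  apply eq_of_le_of_card_ge hLM
  obtain ⟨ρ, hρ⟩ := s.exists_hom_H hS3
  have hinj : Function.Injective (ρ.comp (Subgroup.inclusion (inf_le_left : M ≤ H))) := by
    rw [injective_iff_map_eq_one]
    intro g hg
    have h2 : (g : G) ∈ K := ⟨g.2, (hρ _).mp hg⟩
    rw [hKbot, mem_bot] at h2
    exact Subtype.ext h2
  obtain ⟨φ⟩ := s.nonempty_equiv
  rw [Nat.card_congr φ.toEquiv]
  exact Nat.card_le_card_of_injective _ hinj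

theorem H_le_normalizer_L [Finite G] [Fact p.Prime] (s : SLSetup p V H A x) (hS3 : GenOff p V H) :
    H ≤ normalizer ((A ⊔ cA A x : Subgroup G) : Set G) := by
  rw [s.L_eq_inf_chainStab hS3]
  exact (le_inf le_normalizer (s.H_le_normalizer_chainStab hS3)).trans inf_normalizer_le_normalizer_inf

theorem L_inf_F [Finite G] [Fact p.Prime] (s : SLSetup p V H A x) :
    (A ⊔ cA A x) ⊓ (H ⊓ centralizer ((⁅V, A ⊔ cA A x⁆ : Subgroup G) : Set G)) = ⊥ := by
  rw [eq_bot_iff, ← s.inf_centralizer_W]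
  exact le_inf inf_le_left (inf_le_right.trans inf_le_right)

theorem H_le_normalizer_F [Finite G] [Fact p.Prime] (s : SLSetup p V H A x) (hS3 : GenOff p V H) :
    H ≤ normalizer ((H ⊓ centralizer ((⁅V, A ⊔ cA A x⁆ : Subgroup G) : Set G) : Subgroup G) : Set G) :=
  (le_inf le_normalizer ((s.H_le_normalizer_W hS3).trans (normalizer_le_normalizer_centralizer _))).trans
    inf_normalizer_le_normalizer_inf

theorem comm_L_F [Finite G] [Fact p.Prime] (s : SLSetup p V H A x) (hS3 : GenOff p V H) :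
    ⁅A ⊔ cA A x, H ⊓ centralizer ((⁅V, A ⊔ cA A x⁆ : Subgroup G) : Set G)⁆ = ⊥ := by
  rw [eq_bot_iff, ← s.L_inf_F]
  exact le_inf (le_normalizer_iff_commutator_le_left.mp (inf_le_left.trans (s.H_le_normalizer_L hS3)))
    (le_normalizer_iff_commutator_le_right.mp (s.sup_le.trans (s.H_le_normalizer_F hS3)))

theorem L_sup_F [Finite G] [Fact p.Prime] (s : SLSetup p V H A x) (hS3 : GenOff p V H) :
    (A ⊔ cA A x) ⊔ (H ⊓ centralizer ((⁅V, A ⊔ cA A x⁆ : Subgroup G) : Set G)) = H := by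
  set F := H ⊓ centralizer ((⁅V, A ⊔ cA A x⁆ : Subgroup G) : Set G) with hF
  apply eq_of_le_of_card_ge (_root_.sup_le s.sup_le inf_le_left)
  have h1 := card_sup_mul_card_inf (A ⊔ cA A x) F (s.sup_le.trans (s.H_le_normalizer_F hS3))
  rw [s.L_inf_F, card_bot, mul_one] at h1
  rw [h1]
  obtain ⟨ρ, hρ⟩ := s.exists_hom_H hS3
  obtain ⟨φ⟩ := s.nonempty_equiv
  have hker : ρ.ker = F.subgroupOf H := by
    ext g
    rw [MonoidHom.mem_ker, hρ g, mem_subgroupOf]
    exact ⟨fun h => ⟨g.2, h⟩, fun h => h.2⟩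
  have h2 := Subgroup.card_mul_index ρ.ker
  rw [Subgroup.index_ker, hker, Nat.card_congr (subgroupOfEquivOfLe (inf_le_left : F ≤ H)).toEquiv] at h2
  rw [← h2, mul_comm, Nat.card_congr φ.toEquiv]
  exact Nat.mul_le_mul_right _ (Nat.card_le_card_of_injective _ (Subgroup.subtype_injective _))

theorem comm_V_F_le [Finite G] [Fact p.Prime] (s : SLSetup p V H A x) (hS3 : GenOff p V H) :
    ⁅V, H ⊓ centralizer ((⁅V, A ⊔ cA A x⁆ : Subgroup G) : Set G)⁆ ≤
      V ⊓ centralizer ((A ⊔ cA A x : Subgroup G) : Set G) := by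
  set F := H ⊓ centralizer ((⁅V, A ⊔ cA A x⁆ : Subgroup G) : Set G) with hF
  refine le_inf (s.comm_le inf_le_left) ?_
  rw [← commutator_eq_bot_iff_le_centralizer]
  apply commutator_commutator_eq_bot_of_rotate
  · rw [commutator_comm F, s.comm_L_F hS3, commutator_bot_left]
  · rw [commutator_comm _ V, commutator_eq_bot_iff_le_centralizer, le_centralizer_iff]
    exact inf_le_right

end SLSetup

end Cfsg.Agent.Lib.Helper13
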