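import Cfsg.Agent.Lib.Helper13.FF8
import Cfsg.Agent.H1.CoprimeAb

set_option autoImplicit false
open Cfsg

/-! KS 9.3.8: the structure theorem for failure of factorization. -/

namespace Cfsg.Agent.Lib.Helper13

open Subgroup
open scoped commutatorElement

variable {G : Type*} [Group G] {p : ℕ}

/-- the subgroups `E = [O_{p'}(H), A] A` -/
def IsEE (p : ℕ) (V H E : Subgroup G) : Prop := ∃ A x, SLSetup p V H A x ∧ E = A ⊔ cA A x

theorem MinOff.isEE [Finite G] [Fact p.Prime] {V H B : Subgroup G} (m : MinOff p V H B) :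
    IsEE p V H (⁅Qc p H, B⁆ ⊔ B) := by
  obtain ⟨x, hx, hxA⟩ := m.exists_not_mem
  exact ⟨B, x, m.setup hx hxA, (m.setup hx hxA).EE_eq⟩

theorem FFSetup.minOff_of_min [Finite G] [Fact p.Prime] {V H A : Subgroup G} (h : FFSetup p V H) (hAH : A ≤ H)
    (hA : IsBestOffenderOn p V A) (hAV : ⁅V, A⁆ ≠ ⊥)
    (hmin : ∀ B : Subgroup G, B ≤ A → IsBestOffenderOn p V B → ⁅V, B⁆ ≠ ⊥ → B = A) : MinOff p V H A := by
  have hA1 : A ≠ ⊥ := by
    rintro rfl
    exact hAV (Subgroup.commutator_bot_right V)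
  have hcard : Nat.card A = p := by
    apply h.card_eq_of_min hAH hA hA1
    intro B hB hBo hB1
    exact hmin B hB hBo (fun hc => hB1 (h.eq_bot_of_centralizes (hB.trans hAH) hc))
  exact ⟨h, hAH, hA, hcard⟩

theorem SLSetup.exists_Z {V H A : Subgroup G} {x : G} (s : SLSetup p V H A x) :
    ∃ Z : Subgroup G, Z ≤ Qc p H ∧ Z ≤ A ⊔ cA A x ∧ Z ≠ ⊥ := by
  have h1 : ∃ a ∈ A, ⁅x, a⁆ ≠ 1 := by
    by_contra hcon
    push Not at hcon
    apply s.hxA
    rw [mem_centralizer_iff]
    intro a ha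
    exact (commutatorElement_eq_one_iff_mul_comm.mp (hcon a ha)).symm
  obtain ⟨a, ha, hne⟩ := h1
  refine ⟨zpowers ⁅x, a⁆, ?_, ?_, ?_⟩
  · rw [zpowers_le]
    have h2 : ⁅x, a⁆ = x * (a * x⁻¹ * a⁻¹) := by
      rw [commutatorElement_def]; group
    rw [h2]
    exact mul_mem s.hx (conj_mem_of_mem_normalizer (le_normalizer_Qc H (s.hAH ha)) (inv_mem s.hx))
  · rw [zpowers_le, commutatorElement_def]
    exact mul_mem (mem_sup_right (mem_cA ha)) (inv_mem (mem_sup_left ha))
  · intro h
    exact hne (zpowers_eq_bot.mp h)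

namespace IsEE

variable {V H E E' : Subgroup G}

theorem le_H (e : IsEE p V H E) : E ≤ H := by
  obtain ⟨A, x, s, rfl⟩ := e
  exact s.sup_le

theorem comm_le (e : IsEE p V H E) : ⁅V, E⁆ ≤ V := by
  obtain ⟨A, x, s, rfl⟩ := e
  exact s.comm_le s.sup_le

theorem eq_of_comm_eq [Finite G] [Fact p.Prime] (hS3 : GenOff p V H) (e : IsEE p V H E) (e' : IsEE p V H E')
    (h : ⁅V, E⁆ = ⁅V, E'⁆) : E = E' := by
  obtain ⟨A, x, s, rfl⟩ := e
  obtain ⟨A', x', s', rfl⟩ := e'
  rw [s.L_eq_inf_chainStab hS3, s'.L_eq_inf_chainStab hS3, h]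

theorem comm_inf_comm [Finite G] [Fact p.Prime] (hS3 : GenOff p V H) (e : IsEE p V H E) (e' : IsEE p V H E')
    (hne : E ≠ E') : ⁅V, E⁆ ⊓ ⁅V, E'⁆ = ⊥ := by
  by_contra hcon
  apply hne
  apply eq_of_comm_eq hS3 e e'
  obtain ⟨A, x, s, rfl⟩ := e
  obtain ⟨A', x', s', rfl⟩ := e'
  rw [inf_comm] at hcon
  exact eq_of_le_of_card_ge (s.eq_W_of_invariant hcon s'.Qc_le_normalizer_W) (by rw [s.card_W, s'.card_W])

theorem le_F [Finite G] [Fact p.Prime] (hS3 : GenOff p V H) (e : IsEE p V H E) (e' : IsEE p V H E')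
    (hne : E ≠ E') : E' ≤ H ⊓ centralizer ((⁅V, E⁆ : Subgroup G) : Set G) := by
  refine le_inf e'.le_H ?_
  rw [le_centralizer_iff, ← commutator_eq_bot_iff_le_centralizer, eq_bot_iff, ← comm_inf_comm hS3 e e' hne]
  refine le_inf ?_ (commutator_mono e.comm_le le_rfl)
  have h1 : H ≤ normalizer ((⁅V, E⁆ : Subgroup G) : Set G) := by
    obtain ⟨A, x, s, rfl⟩ := e
    exact s.H_le_normalizer_W hS3
  exact le_normalizer_iff_commutator_le_left.mp (e'.le_H.trans h1)

theorem comm_le_centralizer [Finite G] [Fact p.Prime] (hS3 : GenOff p V H) (e : IsEE p V H E) (e' : IsEE p V H E')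
    (hne : E ≠ E') : ⁅V, E'⁆ ≤ V ⊓ centralizer (E : Set G) :=
  le_inf e'.comm_le (le_centralizer_iff.mp ((le_F hS3 e' e hne.symm).trans inf_le_right))

theorem comm_le_comm_Qc [Finite G] [Fact p.Prime] (e : IsEE p V H E) : ⁅V, E⁆ ≤ ⁅V, Qc p H⁆ := by
  obtain ⟨A, x, s, rfl⟩ := e
  apply s.eq_W_of_invariant _ (normalizer_commutator_ge_right V _)
  obtain ⟨Z, hZQ, hZL, hZ1⟩ := s.exists_Z
  intro hbot
  apply hZ1
  apply s.h.eq_bot_of_centralizes (hZQ.trans (Qc_le H))
  rw [eq_bot_iff, ← hbot]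
  exact le_inf (commutator_mono le_rfl hZQ) (commutator_mono le_rfl hZL)

theorem centralizer_Qc_le [Finite G] [Fact p.Prime] (hS3 : GenOff p V H) (e : IsEE p V H E) :
    V ⊓ centralizer (Qc p H : Set G) ≤ V ⊓ centralizer (E : Set G) := by
  obtain ⟨A, x, s, rfl⟩ := e
  set L := A ⊔ cA A x with hL
  set W := ⁅V, L⁆ with hW
  set QE := Qc p H ⊓ L with hQE
  have hWV : W ≤ V := s.comm_le s.sup_le
  have hX : centralizer (QE : Set G) ⊓ W = ⊥ := by
    by_contra hcon
    have hn : Qc p H ≤ normalizer ((centralizer (QE : Set G) : Subgroup G) : Set G) := by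
      refine le_trans ?_ (normalizer_le_normalizer_centralizer QE)
      exact (le_inf le_normalizer ((Qc_le H).trans (s.H_le_normalizer_L hS3))).trans
        inf_normalizer_le_normalizer_inf
    have h1 := s.eq_W_of_invariant hcon hn
    obtain ⟨Z, hZQ, hZL, hZ1⟩ := s.exists_Z
    apply hZ1
    rw [eq_bot_iff, ← s.inf_centralizer_W]
    exact le_inf hZL ((le_inf hZQ hZL).trans (le_centralizer_iff.mp h1))
  intro v hv
  have hvV : v ∈ W ⊔ (V ⊓ centralizer (L : Set G)) := by
    rw [s.W_sup_centralizer]; exact hv.1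
  have hn : W ≤ normalizer ((V ⊓ centralizer (L : Set G) : Subgroup G) : Set G) := by
    refine le_trans ?_ (centralizer_le_normalizer _)
    exact (hWV.trans (IsEA.le_centralizer s.h.hV)).trans (centralizer_le inf_le_left)
  obtain ⟨w, hw, y, hy, rfl⟩ := mem_sup_of_le_normalizer hn hvV
  have hw1 : w ∈ centralizer (QE : Set G) ⊓ W := by
    refine mem_inf.mpr ⟨?_, hw⟩
    rw [mem_centralizer_iff]
    intro q hq
    have h1 : q * (w * y) = w * y * q := mem_centralizer_iff.mp hv.2 q hq.1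
    have h2 : q * y = y * q := mem_centralizer_iff.mp hy.2 q hq.2
    have h3 : q * w * y = w * q * y := by
      calc q * w * y = q * (w * y) := by group
        _ = w * y * q := h1
        _ = w * (y * q) := by group
        _ = w * (q * y) := by rw [h2]
        _ = w * q * y := by group
    exact mul_right_cancel h3
  rw [hX, mem_bot] at hw1
  rw [hw1, one_mul]
  exact hy

end IsEE

theorem ff_structure [Finite G] [Fact p.Prime] {V H : Subgroup G} (h : FFSetup p V H) (hS3 : GenOff p V H)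
    (hH1 : H ≠ ⊥) (P : Subgroup G → Prop) (hP1 : ∀ E, P E → IsEE p V H E)
    (hP2 : ∀ B, MinOff p V H B → P (⁅Qc p H, B⁆ ⊔ B)) :
    (p = 2 ∨ p = 3) ∧
    (∀ E : {E : Subgroup G // P E}, H ≤ normalizer ((E : Subgroup G) : Set G) ∧
      Nonempty (↥(E : Subgroup G) ≃* Matrix.SpecialLinearGroup (Fin 2) (ZMod p)) ∧
      Nat.card ↥(⁅V, (E : Subgroup G)⁆) = p ^ 2) ∧
    iSupIndep (fun E : {E : Subgroup G // P E} => (E : Subgroup G)) ∧
    (⨆ E : {E : Subgroup G // P E}, (E : Subgroup G)) = H ∧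
    iSupIndep (fun o : Option {E : Subgroup G // P E} =>
      o.elim (V ⊓ centralizer (H : Set G)) (fun E => ⁅V, (E : Subgroup G)⁆)) ∧
    (V ⊓ centralizer (H : Set G)) ⊔ (⨆ E : {E : Subgroup G // P E}, ⁅V, (E : Subgroup G)⁆) = V := by
  have hgen := h.le_closure_minOff hS3
  have hsup : (⨆ E : {E : Subgroup G // P E}, (E : Subgroup G)) = H := by
    refine le_antisymm (iSup_le ?_) ?_
    · intro E
      exact (hP1 E.1 E.2).le_H
    · refine hgen.trans ?_
      rw [closure_le]
      rintro b ⟨B, mB, hb⟩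
      have h1 : ⁅Qc p H, B⁆ ⊔ B ≤ ⨆ E : {E : Subgroup G // P E}, (E : Subgroup G) :=
        le_iSup (fun E : {E : Subgroup G // P E} => (E : Subgroup G)) ⟨_, hP2 B mB⟩
      exact h1 (mem_sup_right hb)
  have hVc : IsMulCommutative V := h.hV.1
  have hcop : (Nat.card (Qc p H)).Coprime (Nat.card V) := by
    obtain ⟨k, hk⟩ := IsPGroup.iff_card.mp (IsEA.isPGroup h.hV)
    rw [hk]
    exact Nat.Coprime.pow_right k (Qc_coprime H)
  have hdec := Cfsg.H1.coprime_abelian_decomp (Qc p H) V ((Qc_le H).trans h.hHV) hcop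
  refine ⟨?_, ?_, ?_, hsup, ?_, ?_⟩
  · by_contra hcon
    apply hH1
    rw [eq_bot_iff]
    refine hgen.trans ?_
    rw [closure_le]
    rintro b ⟨B, mB, hb⟩
    exact absurd mB.two_or_three hcon
  · rintro ⟨E, hE⟩
    obtain ⟨A, x, s, rfl⟩ := hP1 E hE
    exact ⟨s.H_le_normalizer_L hS3, s.nonempty_equiv, s.card_W⟩
  · rintro ⟨E, hE⟩
    have e := hP1 E hE
    have h1 : (⨆ (j : {E : Subgroup G // P E}) (_ : j ≠ ⟨E, hE⟩), (j : Subgroup G)) ≤
        H ⊓ centralizer ((⁅V, E⁆ : Subgroup G) : Set G) := by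
      apply iSup₂_le
      rintro ⟨E', hE'⟩ hne
      exact IsEE.le_F hS3 e (hP1 E' hE') (fun heq => hne (Subtype.ext heq.symm))
    refine Disjoint.mono_right h1 ?_
    rw [disjoint_iff]
    obtain ⟨A, x, s, rfl⟩ := e
    exact s.L_inf_F
  · intro o
    cases o with
    | none =>
      have h1 : (⨆ (j : Option {E : Subgroup G // P E}) (_ : j ≠ none),
          j.elim (V ⊓ centralizer (H : Set G)) (fun E => ⁅V, (E : Subgroup G)⁆)) ≤ ⁅V, Qc p H⁆ := by
        apply iSup₂_le
        intro j hj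
        cases j with
        | none => exact absurd rfl hj
        | some E' => exact (hP1 E'.1 E'.2).comm_le_comm_Qc
      have h0 : V ⊓ centralizer (H : Set G) ≤ V ⊓ centralizer (Qc p H : Set G) :=
        inf_le_inf_left V (centralizer_le (Qc_le H))
      refine Disjoint.mono h0 h1 ?_
      rw [disjoint_iff]
      exact hdec.1
    | some E =>
      obtain ⟨E, hE⟩ := E
      have e := hP1 E hE
      have h1 : (⨆ (j : Option {E : Subgroup G // P E}) (_ : j ≠ some ⟨E, hE⟩),
          j.elim (V ⊓ centralizer (H : Set G)) (fun E => ⁅V, (E : Subgroup G)⁆)) ≤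
          V ⊓ centralizer (E : Set G) := by
        apply iSup₂_le
        intro j hj
        cases j with
        | none => exact inf_le_inf_left V (centralizer_le e.le_H)
        | some E' =>
          exact IsEE.comm_le_centralizer hS3 e (hP1 E'.1 E'.2) (fun heq => hj (by
            congr 1
            exact Subtype.ext heq.symm))
      refine Disjoint.mono_right h1 ?_
      rw [disjoint_iff]
      obtain ⟨A, x, s, rfl⟩ := e
      exact s.W_inf_centralizer
  · set T := ⨆ E : {E : Subgroup G // P E}, ⁅V, (E : Subgroup G)⁆ with hT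
    have hTV : T ≤ V := by
      apply iSup_le
      intro E
      exact (hP1 E.1 E.2).comm_le
    apply le_antisymm (sup_le inf_le_left hTV)
    nth_rewrite 1 [← hdec.2]
    apply sup_le_sup
    · intro v hv
      refine ⟨hv.1, ?_⟩
      have h1 : H ≤ centralizer ((zpowers v : Subgroup G) : Set G) := by
        rw [← hsup]
        apply iSup_le
        intro E
        rw [le_centralizer_iff, zpowers_le]
        exact ((hP1 E.1 E.2).centralizer_Qc_le hS3 hv).2
      exact le_centralizer_iff.mp h1 (mem_zpowers v)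
    · have h1 : H ≤ chainStab V T := by
        rw [← hsup]
        apply iSup_le
        intro E g hg
        apply mem_chainStab_of hTV
        intro v hv
        exact (le_iSup (fun E : {E : Subgroup G // P E} => ⁅V, (E : Subgroup G)⁆) E)
          (commutator_mem_commutator hv hg)
      exact (commutator_mono le_rfl ((Qc_le H).trans h1)).trans (commutator_chainStab_le _ _)

end Cfsg.Agent.Lib.Helper13
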