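import Cfsg.Agent.Lib.Helper13.GorStab
import Cfsg.Agent.Lib.Helper13.StableW3

set_option autoImplicit false
open Cfsg

/-! A characteristic `p`-functor normal in `G / O_{p'}(G)` gives the factorization `G = O_{p'}(G) N_G(W(S))`. -/

universe u

namespace Cfsg.Agent.Lib.Helper13

open Subgroup
open scoped commutatorElement

variable {p : ℕ} [Fact p.Prime] {G : Type u} [Group G] [Finite G]

theorem functor_factorization {W : ∀ (Q : Type u) [Group Q], Subgroup Q} (hW : IsCharPFunctor.{u} p W)
    (S : Sylow p G)
    (hn : (inducedFunctor W ((S : Subgroup G).map (QuotientGroup.mk' (pPrimeCore p G)))).Normal) :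
    pPrimeCore p G ⊔ normalizer (inducedFunctor W (S : Subgroup G) : Set G) = ⊤ := by
  set O := pPrimeCore p G with hO
  set π := QuotientGroup.mk' O with hπ
  have hπs : Function.Surjective π := QuotientGroup.mk'_surjective O
  have hker : π.ker = O := QuotientGroup.ker_mk' O
  have hcop : (Nat.card π.ker).Coprime p := by rw [hker]; exact Cfsg.Agent.H12.pPrimeCore_coprime p
  have hmap := Cfsg.Agent.H12.inducedFunctor_map hW π (S : Subgroup G) S.2
      (Cfsg.Agent.H12.injOn_of_coprime_ker hcop S.2)
  have hZp : IsPGroup p (inducedFunctor W (S : Subgroup G)) := S.2.to_le (map_subtype_le _)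
  have h2 := Cfsg.Agent.H12.normalizer_map_of_coprime_ker hπs hcop hZp
  rw [hmap, normalizer_eq_top_iff.mpr hn] at h2
  have h3 := comap_map_eq π (normalizer (inducedFunctor W (S : Subgroup G) : Set G))
  rw [← h2, comap_top, hker] at h3
  rw [sup_comm, ← h3]

theorem isCharPFunctor_snc : IsCharPFunctor.{u} p (fun (Q : Type u) [Group Q] => stableNormalClosure p Q) := by
  constructor
  · intro Q _ _ hQ hnt
    exact snc_ne_bot hQ
  · intro Q R _ _ _ _ φ
    exact snc_map_equiv φ

end Cfsg.Agent.Lib.Helper13
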