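import Cfsg.Agent.Lib.Helper13.GorStab
import Cfsg.Agent.Lib.Helper13.NPC2
import Cfsg.Agent.H12.Basic

set_option autoImplicit false
open Cfsg

/-! Characteristic `p` type with `p`-stable locals: `N(Z(J(P)))` contains all `p`-locals of subgroups of `P`. -/

universe u

namespace Cfsg.Agent.Lib.Helper13

open Subgroup
open scoped commutatorElement

variable {p : ℕ} [Fact p.Prime] {G : Type u} [Group G] [Finite G]

theorem le_normalizer_zAb_of_local (hp : p ≠ 2) {e : ℕ} (he1 : e = 0 ∨ Odd e) (he2 : e = 0 ∨ p ∣ e)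
    {N R : Subgroup G} (hO : pPrimeCore p N = ⊥) (hc : IsPConstrained p N)
    (hs : IsPStable p N) (hRN : R ≤ N) (hR : IsPGroup p R) (hidx : ¬ p ∣ R.relIndex N) :
    N ≤ normalizer (zAb e R : Set G) := by
  have hR' : IsPGroup p (R.subgroupOf N) := hR.comap_subtype
  have h1 := zAb_normal_of_isPStable hp he1 he2 hc hs hO (hR'.toSylow hidx)
  have h0 : ((hR'.toSylow hidx : Sylow p N) : Subgroup N) = R.subgroupOf N := rfl
  rw [h0] at h1
  have h2 := zAb_map_subtype e hRN
  have h3 : (zAb e R).subgroupOf N = zAb e (R.subgroupOf N) := by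
    rw [← h2]
    exact comap_map_eq_self_of_injective N.subtype_injective _
  rw [← h3] at h1
  exact (normal_subgroupOf_iff_le_normalizer ((zAb_le R).trans hRN)).mp h1

theorem zAb_ne_bot {e : ℕ} (he2 : e = 0 ∨ p ∣ e) {R : Subgroup G} (hR : IsPGroup p R) (hR1 : R ≠ ⊥) :
    zAb e R ≠ ⊥ := by
  have h1 := (isCharPFunctor_WZ.{u} (p := p) he2).1 R hR ((nontrivial_iff_ne_bot R).mpr hR1)
  intro h
  rw [← inducedFunctor_WZ] at h
  unfold inducedFunctor at h
  exact h1 ((map_eq_bot_iff_of_injective _ R.subtype_injective).mp h)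

theorem normalizer_le_normalizer_zAb_of_locals (hp : p ≠ 2) {e : ℕ} (he1 : e = 0 ∨ Odd e) (he2 : e = 0 ∨ p ∣ e)
    (hloc : ∀ Q : Subgroup G, IsPGroup p Q → Q ≠ ⊥ → pPrimeCore p ↥(normalizer (Q : Set G)) = ⊥ ∧
      IsPConstrained p ↥(normalizer (Q : Set G)) ∧ IsPStable p ↥(normalizer (Q : Set G)))
    (P : Sylow p G) : ∀ (n : ℕ) (Q : Subgroup G), Q ≤ (P : Subgroup G) → Q ≠ ⊥ →
      Nat.card (P : Subgroup G) - Nat.card ↥((P : Subgroup G) ⊓ normalizer (Q : Set G)) = n →
      normalizer (Q : Set G) ≤ normalizer (zAb e (P : Subgroup G) : Set G) := by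
  intro n
  induction n using Nat.strong_induction_on with
  | _ n ih =>
  intro Q hQP hQ1 hn
  set M := normalizer (zAb e (P : Subgroup G) : Set G) with hM
  set R₀ := (P : Subgroup G) ⊓ normalizer (Q : Set G) with hR₀
  have hQp : IsPGroup p Q := P.2.to_le hQP
  obtain ⟨hO, hc, hs⟩ := hloc Q hQp hQ1
  have hPM : (P : Subgroup G) ≤ M := le_normalizer.trans (normalizer_le_normalizer_zAb _)
  have hcardle : ∀ X : Subgroup G, X ≤ (P : Subgroup G) → Nat.card X ≤ Nat.card (P : Subgroup G) :=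
    fun X hX => Nat.le_of_dvd Nat.card_pos (card_dvd_of_le hX)
  -- the inductive hypothesis in a convenient form
  have IH : ∀ Q' : Subgroup G, Q' ≤ (P : Subgroup G) → Q' ≠ ⊥ →
      Nat.card R₀ < Nat.card ↥((P : Subgroup G) ⊓ normalizer (Q' : Set G)) → normalizer (Q' : Set G) ≤ M := by
    intro Q' h1 h2 h3
    refine ih _ ?_ Q' h1 h2 rfl
    have h4 := hcardle _ (inf_le_left : (P : Subgroup G) ⊓ normalizer (Q' : Set G) ≤ P)
    have h5 := hcardle _ (inf_le_left : (P : Subgroup G) ⊓ normalizer (Q : Set G) ≤ P)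
    omega
  have hQR₀ : Q ≤ R₀ := le_inf hQP le_normalizer
  have hR₀1 : R₀ ≠ ⊥ := fun h => hQ1 (le_bot_iff.mp (h ▸ hQR₀))
  have hR₀p : IsPGroup p R₀ := P.2.to_le inf_le_left
  by_cases hcase : R₀ = (P : Subgroup G)
  · -- `P` normalizes `Q`
    have hPN : (P : Subgroup G) ≤ normalizer (Q : Set G) := hcase ▸ inf_le_right
    apply le_normalizer_zAb_of_local hp he1 he2 hO hc hs hPN P.2
    intro hd
    apply P.not_dvd_index
    rw [← relIndex_mul_index hPN]
    exact hd.mul_right _
  · have hlt : R₀ < (P : Subgroup G) := lt_of_le_of_ne inf_le_left hcase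
    have hlt2 : R₀ < (P : Subgroup G) ⊓ normalizer (R₀ : Set G) := lt_inf_normalizer P.2 hlt
    have hchar : ∀ C : Subgroup G, C ≤ R₀ → C ≠ ⊥ → normalizer (R₀ : Set G) ≤ normalizer (C : Set G) →
        normalizer (C : Set G) ≤ M := by
      intro C hC hC1 hCN
      apply IH C (hC.trans inf_le_left) hC1
      exact (card_lt_of_lt hlt2).trans_le (Nat.le_of_dvd Nat.card_pos (card_dvd_of_le (inf_le_inf_left _ hCN)))
    obtain ⟨R, hR₀R, hRN, hRp, hRidx⟩ := Cfsg.Agent.H12.exists_sylow_rel (p := p)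
      (inf_le_right : R₀ ≤ normalizer (Q : Set G)) hR₀p
    by_cases hcase2 : R₀ = R
    · have h1 := le_normalizer_zAb_of_local hp he1 he2 hO hc hs hRN hRp hRidx
      rw [← hcase2] at h1
      exact h1.trans (hchar _ (zAb_le R₀) (zAb_ne_bot he2 hR₀p hR₀1) (normalizer_le_normalizer_zAb _))
    · have hlt3 : R₀ < R := lt_of_le_of_ne hR₀R hcase2
      have hlt4 : R₀ < R ⊓ normalizer (R₀ : Set G) := lt_inf_normalizer hRp hlt3
      set R₁ := R ⊓ normalizer (R₀ : Set G) with hR₁
      have hR₁M : R₁ ≤ M := inf_le_right.trans (hchar R₀ le_rfl hR₀1 le_rfl)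
      have hPidx : ¬ p ∣ (P : Subgroup G).relIndex M := by
        intro hd
        apply P.not_dvd_index
        rw [← relIndex_mul_index hPM]
        exact hd.mul_right _
      obtain ⟨m, hmM, hm⟩ := Cfsg.Agent.H12.exists_conj_le_of_relIndex hPM P.2 hPidx hR₁M (hRp.to_le inf_le_left)
      set c := (MulAut.conj m).toMonoidHom with hcdef
      have hQ'P : Q.map c ≤ (P : Subgroup G) := (map_mono (hQR₀.trans hlt4.le)).trans hm
      have hQ'1 : Q.map c ≠ ⊥ := fun h => hQ1 ((map_eq_bot_iff_of_injective _ (MulAut.conj m).injective).mp h)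
      have hNmap : (normalizer (Q : Set G)).map c = normalizer ((Q.map c : Subgroup G) : Set G) :=
        map_equiv_normalizer_eq Q (MulAut.conj m)
      have h1 : R₁.map c ≤ (P : Subgroup G) ⊓ normalizer ((Q.map c : Subgroup G) : Set G) := by
        refine le_inf hm ?_
        rw [← hNmap]
        exact map_mono (inf_le_left.trans hRN)
      have h2 : normalizer ((Q.map c : Subgroup G) : Set G) ≤ M := by
        apply IH _ hQ'P hQ'1
        have h3 : Nat.card (R₁.map c) = Nat.card R₁ := card_map_of_injective (MulAut.conj m).injective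
        calc Nat.card R₀ < Nat.card R₁ := card_lt_of_lt hlt4
          _ = Nat.card (R₁.map c) := h3.symm
          _ ≤ _ := Nat.le_of_dvd Nat.card_pos (card_dvd_of_le h1)
      intro x hx
      have h3 : c x ∈ M := h2 (hNmap ▸ mem_map_of_mem c hx)
      have h4 : m⁻¹ * c x * m ∈ M := M.mul_mem (M.mul_mem (M.inv_mem hmM) h3) hmM
      have h5 : m⁻¹ * c x * m = x := by
        change m⁻¹ * (m * x * m⁻¹) * m = x
        group
      rwa [h5] at h4

end Cfsg.Agent.Lib.Helper13
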