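import Cfsg.Agent.Lib.Helper13.PStab4
import Cfsg.Agent.Lib.Helper13.Amb4
import Cfsg.Agent.H12.Sec2
import Cfsg.Agent.H12.Dk25
import Cfsg.Agent.H9.PConstr2

set_option autoImplicit false
open Cfsg

/-! Gorenstein's `p`-stability and `p`-constraint: passage to `G / O_{p'}(G)`; the `ZJ`-theorem in that vocabulary. -/

universe u

namespace Cfsg.Agent.Lib.Helper13

open Subgroup
open scoped commutatorElement

variable {p : ℕ} [Fact p.Prime] {G : Type u} [Group G] [Finite G]

theorem isPStableOn_quotient_of_isPStable (hs : IsPStable p G) (Pb : Subgroup (G ⧸ pPrimeCore p G)) [hPn : Pb.Normal]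
    (hPb : IsPGroup p Pb) : IsPStableOn p Pb := by
  set O := pPrimeCore p G with hO
  intro ab hq
  set π := QuotientGroup.mk' O with hπ
  have hπs : Function.Surjective π := QuotientGroup.mk'_surjective O
  have hker : π.ker = O := QuotientGroup.ker_mk' O
  have hcop : (Nat.card π.ker).Coprime p := by rw [hker]; exact Cfsg.Agent.H12.pPrimeCore_coprime p
  have hNtop : normalizer (Pb : Set (G ⧸ O)) = ⊤ := normalizer_eq_top Pb
  -- reduction to a `p`-subgroup
  obtain ⟨Yb, hYle, hYp, hYcov⟩ := exists_pSubgroup_cover (p := p) (V := Pb) (A := zpowers ab)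
    (by rw [hNtop]; exact le_top) (by
      rintro _ ⟨k, rfl⟩
      obtain ⟨r, hr⟩ := IsPGroup.iff_card.mp hPb
      refine ⟨r, ?_⟩
      have h1 := (Cfsg.Agent.H12.Dk.quadOn_of_comm hq).pow_card_mem_centralizer (by rw [hNtop]; exact mem_top _)
      rw [hr] at h1
      change (ab ^ k) ^ p ^ r ∈ _
      rw [← zpow_natCast, ← zpow_mul, mul_comm, zpow_mul, zpow_natCast]
      exact zpow_mem h1 k)
  obtain ⟨xb, hxb, cb, hcb, habx⟩ := hYcov ab (mem_zpowers ab)
  obtain ⟨A, hA, hAmap⟩ := exists_pSubgroup_map_eq (p := p) π (D := Yb)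
    (by rw [MonoidHom.range_eq_top.mpr hπs]; exact le_top) hYp
  obtain ⟨R, hAR⟩ := hA.exists_le_sylow
  set M := Pb.comap π with hM
  have hMn : M.Normal := hPn.comap π
  set P₀ := (R : Subgroup G) ⊓ M with hP₀
  have hP₀p : IsPGroup p P₀ := R.2.to_le inf_le_left
  have hP₀map : P₀.map π = Pb := by
    apply le_antisymm
    · rintro _ ⟨x, hx, rfl⟩
      exact hx.2
    · intro y hy
      have h1 : Pb ≤ ((R.mapSurjective hπs : Sylow p _) : Subgroup _) :=
        (Cfsg.H1.le_pCore hPn hPb).trans (pCore_le_sylow _)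
      rw [Sylow.coe_mapSurjective] at h1
      obtain ⟨x, hx, rfl⟩ := h1 hy
      exact ⟨x, mem_inf.mpr ⟨hx, hy⟩, rfl⟩
  have hAN : A ≤ normalizer (P₀ : Set G) := by
    have h1 : A ≤ normalizer ((R : Subgroup G) : Set G) := hAR.trans le_normalizer
    have h2 : A ≤ normalizer (M : Set G) := by rw [normalizer_eq_top M]; exact le_top
    exact (le_inf h1 h2).trans inf_normalizer_le_normalizer_inf
  have hsup : O ⊔ P₀ = M := by
    rw [hM, ← hP₀map, comap_map_eq, hker, sup_comm]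
  have hcore : P₀ ≤ pPrimePCore p G := by
    unfold pPrimePCore
    rw [← map_le_iff_le_comap, hP₀map]
    exact Cfsg.H1.le_pCore hPn hPb
  have hquad : ⁅⁅P₀, A⁆, A⁆ = ⊥ := by
    have h1 : ⁅P₀, A⁆ ≤ P₀ := comm_le_of_normalizes hAN
    have h2 : ⁅⁅P₀, A⁆, A⁆ ≤ P₀ := (commutator_mono h1 le_rfl).trans h1
    have h3 : ⁅⁅P₀, A⁆, A⁆ ≤ π.ker := by
      rw [← Subgroup.map_eq_bot_iff, map_commutator, map_commutator, hP₀map, hAmap, eq_bot_iff, ← hq]
      exact commutator_mono (commutator_mono le_rfl hYle) hYle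
    rw [eq_bot_iff, ← Cfsg.Agent.H12.inf_eq_bot_of_pGroup_of_coprime hP₀p hcop]
    exact le_inf h2 h3
  have key := hs.2.2 A P₀ hA hP₀p (fun a ha x hx => (mem_normalizer_iff.mp (hAN ha) x).mp hx) hcore
    (by rw [hsup]; exact hMn) hquad
  set N := normalizer (P₀ : Set G) with hN
  set C := centralizer (P₀ : Set G) with hC
  have hNsurj : Function.Surjective (π.comp N.subtype) := by
    intro y
    have h1 : y ∈ N.map π := by
      rw [hN, ← Cfsg.Agent.H12.normalizer_map_of_coprime_ker hπs hcop hP₀p, hP₀map, hNtop]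
      exact mem_top y
    obtain ⟨n, hn, rfl⟩ := h1
    exact ⟨⟨n, hn⟩, rfl⟩
  let φ : N →* (G ⧸ O) ⧸ centralizer (Pb : Set (G ⧸ O)) :=
    (QuotientGroup.mk' (centralizer (Pb : Set (G ⧸ O)))).comp (π.comp N.subtype)
  have hφs : Function.Surjective φ := (QuotientGroup.mk'_surjective _).comp hNsurj
  have hφk : C.subgroupOf N ≤ φ.ker := by
    intro n hn
    rw [MonoidHom.mem_ker]
    change (QuotientGroup.mk' (centralizer (Pb : Set (G ⧸ O)))) (π n) = 1
    rw [QuotientGroup.mk'_apply, QuotientGroup.eq_one_iff, mem_centralizer_iff]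
    intro y hy
    rw [SetLike.mem_coe, ← hP₀map] at hy
    obtain ⟨x, hx, rfl⟩ := hy
    rw [← map_mul, ← map_mul, (mem_centralizer_iff.mp (mem_subgroupOf.mp hn)) x hx]
  let ψ : N ⧸ C.subgroupOf N →* (G ⧸ O) ⧸ centralizer (Pb : Set (G ⧸ O)) := QuotientGroup.lift _ φ hφk
  have hψs : Function.Surjective ψ := by
    intro y
    obtain ⟨n, rfl⟩ := hφs y
    exact ⟨QuotientGroup.mk n, rfl⟩
  have hψcore := Cfsg.H9.map_pCore_le_of_surjective p ψ hψs
  obtain ⟨a, haA, hax⟩ : xb ∈ A.map π := by rw [hAmap]; exact hxb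
  have h1 : (QuotientGroup.mk' (C.subgroupOf N)) ⟨a, hAN haA⟩ ∈ pCore p (N ⧸ C.subgroupOf N) :=
    key ⟨⟨a, hAN haA⟩, haA, rfl⟩
  have h2 : ψ ((QuotientGroup.mk' (C.subgroupOf N)) ⟨a, hAN haA⟩) ∈ pCore p _ := hψcore ⟨_, h1, rfl⟩
  have h3 : ψ ((QuotientGroup.mk' (C.subgroupOf N)) ⟨a, hAN haA⟩) =
      (QuotientGroup.mk ab : (G ⧸ O) ⧸ centralizer (Pb : Set (G ⧸ O))) := by
    change (QuotientGroup.mk (π a) : (G ⧸ O) ⧸ centralizer (Pb : Set (G ⧸ O))) = _
    rw [hax, habx, QuotientGroup.eq]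
    simpa using hcb
  rw [h3] at h2
  exact h2

/-- Glauberman's `ZJ`-theorem for `p`-constrained `p`-stable groups: the factorization -/
theorem zAb_factorization (hp : p ≠ 2) {e : ℕ} (he1 : e = 0 ∨ Odd e) (he2 : e = 0 ∨ p ∣ e)
    (hc : IsPConstrained p G) (hs : IsPStable p G) (P : Sylow p G) :
    pPrimeCore p G ⊔ normalizer (zAb e (P : Subgroup G) : Set G) = ⊤ := by
  set O := pPrimeCore p G with hO
  set π := QuotientGroup.mk' O with hπ
  have hπs : Function.Surjective π := QuotientGroup.mk'_surjective O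
  have hker : π.ker = O := QuotientGroup.ker_mk' O
  have hcop : (Nat.card π.ker).Coprime p := by rw [hker]; exact Cfsg.Agent.H12.pPrimeCore_coprime p
  have hcb := (Cfsg.H9.pLayer_eq_bot_iff_centralizer).mp ((Cfsg.H9.isPConstrained_iff).mp hc)
  have hn := zAb_normal hp he1 hcb (fun Pb _ hPb => isPStableOn_quotient_of_isPStable hs Pb hPb)
    (P.mapSurjective hπs)
  rw [Sylow.coe_mapSurjective] at hn
  have hmap : (zAb e (P : Subgroup G)).map π = zAb e ((P : Subgroup G).map π) := by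
    have h1 := Cfsg.Agent.H12.inducedFunctor_map (isCharPFunctor_WZ (p := p) he2) π (P : Subgroup G) P.2
      (Cfsg.Agent.H12.injOn_of_coprime_ker hcop P.2)
    rwa [inducedFunctor_WZ, inducedFunctor_WZ] at h1
  have hZp : IsPGroup p (zAb e (P : Subgroup G)) := P.2.to_le (zAb_le _)
  have h2 := Cfsg.Agent.H12.normalizer_map_of_coprime_ker hπs hcop hZp
  rw [hmap, normalizer_eq_top_iff.mpr hn] at h2
  have h3 := comap_map_eq π (normalizer (zAb e (P : Subgroup G) : Set G))
  rw [← h2, comap_top, hker] at h3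
  rw [sup_comm, ← h3]

theorem zAb_normal_of_isPStable (hp : p ≠ 2) {e : ℕ} (he1 : e = 0 ∨ Odd e) (he2 : e = 0 ∨ p ∣ e)
    (hc : IsPConstrained p G) (hs : IsPStable p G) (hO : pPrimeCore p G = ⊥) (P : Sylow p G) :
    (zAb e (P : Subgroup G)).Normal := by
  have h := zAb_factorization hp he1 he2 hc hs P
  rw [hO, bot_sup_eq] at h
  exact normalizer_eq_top_iff.mp h

end Cfsg.Agent.Lib.Helper13
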