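import Cfsg.Agent.Lib.Helper13.GorStab

set_option autoImplicit false
set_option linter.unusedSectionVars false
open Cfsg

/-! Gorenstein's `p`-stability passes to and from `G / O_{p'}(G)`. -/

universe u

namespace Cfsg.Agent.Lib.Helper13

open Subgroup
open scoped commutatorElement

variable {p : ℕ} [Fact p.Prime] {G : Type u} [Group G] [Finite G]

/-- the automizer of a `p`-subgroup is unchanged modulo a normal `p'`-subgroup -/
theorem exists_automizer_equiv {G' : Type u} [Group G'] (π : G →* G') (hπs : Function.Surjective π)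
    (hcop : (Nat.card π.ker).Coprime p) (P : Subgroup G) (hP : IsPGroup p P) :
    ∃ e : (normalizer (P : Set G) ⧸ (centralizer (P : Set G)).subgroupOf (normalizer (P : Set G))) ≃*
        (normalizer ((P.map π : Subgroup G') : Set G') ⧸
          (centralizer ((P.map π : Subgroup G') : Set G')).subgroupOf (normalizer ((P.map π : Subgroup G') : Set G'))),
      ∀ (n : G) (hn : n ∈ normalizer (P : Set G)) (hn' : π n ∈ normalizer ((P.map π : Subgroup G') : Set G')),
        e (QuotientGroup.mk ⟨n, hn⟩) = QuotientGroup.mk ⟨π n, hn'⟩ := by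
  set N := normalizer (P : Set G) with hN
  set C := centralizer (P : Set G) with hC
  set N' := normalizer ((P.map π : Subgroup G') : Set G') with hN'
  set C' := centralizer ((P.map π : Subgroup G') : Set G') with hC'
  have hNN' : ∀ n : N, π n ∈ N' := fun n => le_normalizer_map π ⟨n, n.2, rfl⟩
  let f : N →* N' := (π.comp N.subtype).codRestrict N' hNN'
  have hfs : Function.Surjective f := by
    rintro ⟨y, hy⟩
    rw [hN', Cfsg.Agent.H12.normalizer_map_of_coprime_ker hπs hcop hP] at hy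
    obtain ⟨n, hn, rfl⟩ := hy
    exact ⟨⟨n, hn⟩, rfl⟩
  let φ : N →* N' ⧸ C'.subgroupOf N' := (QuotientGroup.mk' (C'.subgroupOf N')).comp f
  have hφs : Function.Surjective φ := (QuotientGroup.mk'_surjective _).comp hfs
  have hφk : φ.ker = C.subgroupOf N := by
    ext n
    rw [MonoidHom.mem_ker]
    change (QuotientGroup.mk' (C'.subgroupOf N')) (f n) = 1 ↔ _
    rw [QuotientGroup.mk'_apply, QuotientGroup.eq_one_iff, mem_subgroupOf, mem_subgroupOf]
    change π n ∈ C' ↔ (n : G) ∈ C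
    rw [hC', hC, mem_centralizer_iff, mem_centralizer_iff]
    constructor
    · intro h x hx
      have h1 : π (x * n) = π (n * x) := by
        rw [map_mul, map_mul]
        exact h (π x) ⟨x, hx, rfl⟩
      have h2 : (n : G) * x * (n : G)⁻¹ ∈ P := (mem_normalizer_iff.mp n.2 x).mp hx
      have h3 := Cfsg.Agent.H12.injOn_of_coprime_ker hcop hP hx h2 (by
        rw [map_mul, map_mul, map_inv, ← map_mul, ← h1, map_mul]
        group)
      calc x * (n : G) = ((n : G) * x * (n : G)⁻¹) * n := by rw [← h3]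
        _ = n * x := by group
    · rintro h _ ⟨x, hx, rfl⟩
      rw [← map_mul, ← map_mul, h x hx]
  let e := (QuotientGroup.quotientMulEquivOfEq hφk.symm).trans (QuotientGroup.quotientKerEquivOfSurjective φ hφs)
  exact ⟨e, fun n hn hn' => rfl⟩

theorem pCore_le_pPrimePCore : pCore p G ≤ pPrimePCore p G := by
  unfold pPrimePCore
  rw [← map_le_iff_le_comap]
  exact Cfsg.H9.map_pCore_le_of_surjective p _ (QuotientGroup.mk'_surjective _)

theorem isPStable_quotient (hs : IsPStable p G) : IsPStable p (G ⧸ pPrimeCore p G) := by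
  set O := pPrimeCore p G with hO
  set π := QuotientGroup.mk' O with hπ
  have hπs : Function.Surjective π := QuotientGroup.mk'_surjective O
  have hker : π.ker = O := QuotientGroup.ker_mk' O
  have hcop : (Nat.card π.ker).Coprime p := by rw [hker]; exact Cfsg.Agent.H12.pPrimeCore_coprime p
  have hbot : pPrimeCore p (G ⧸ O) = ⊥ := Cfsg.H9.pPrimeCore_quotient p
  refine ⟨hs.1, ?_, ?_⟩
  · intro h
    apply hs.2.1
    have h1 : (pCore p G).map π ≤ pCore p (G ⧸ O) := Cfsg.H9.map_pCore_le_of_surjective p π hπs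
    rw [h, le_bot_iff, Subgroup.map_eq_bot_iff] at h1
    rw [eq_bot_iff, ← Cfsg.Agent.H12.inf_eq_bot_of_pGroup_of_coprime (Cfsg.H1.pCore_isPGroup p) hcop]
    exact le_inf le_rfl h1
  · intro Ab Pb hAb hPb hnorm _ hPn hq
    rw [hbot, bot_sup_eq] at hPn
    obtain ⟨A, hA, hAmap⟩ := exists_pSubgroup_map_eq (p := p) π (D := Ab)
      (by rw [MonoidHom.range_eq_top.mpr hπs]; exact le_top) hAb
    obtain ⟨R, hAR⟩ := hA.exists_le_sylow
    set M := Pb.comap π with hM
    have hMn : M.Normal := hPn.comap π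
    set P₀ := (R : Subgroup G) ⊓ M with hP₀
    have hP₀p : IsPGroup p P₀ := R.2.to_le inf_le_left
    have hP₀map : P₀.map π = Pb := by
      apply le_antisymm
      · rintro _ ⟨x, hx, rfl⟩
        exact hx.2
      · intro y hy
        have h1 : Pb ≤ ((R.mapSurjective hπs : Sylow p _) : Subgroup _) :=
          (Cfsg.H1.le_pCore hPn hPb).trans (pCore_le_sylow _)
        rw [Sylow.coe_mapSurjective] at h1
        obtain ⟨x, hx, rfl⟩ := h1 hy
        exact ⟨x, mem_inf.mpr ⟨hx, hy⟩, rfl⟩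
    have hAN : A ≤ normalizer (P₀ : Set G) := by
      have h1 : A ≤ normalizer ((R : Subgroup G) : Set G) := hAR.trans le_normalizer
      have h2 : A ≤ normalizer (M : Set G) := by rw [normalizer_eq_top M]; exact le_top
      exact (le_inf h1 h2).trans inf_normalizer_le_normalizer_inf
    have hsup : O ⊔ P₀ = M := by
      rw [hM, ← hP₀map, comap_map_eq, hker, sup_comm]
    have hcore : P₀ ≤ pPrimePCore p G := by
      unfold pPrimePCore
      rw [← map_le_iff_le_comap, hP₀map]
      exact Cfsg.H1.le_pCore hPn hPb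
    have hquad : ⁅⁅P₀, A⁆, A⁆ = ⊥ := by
      have h1 : ⁅P₀, A⁆ ≤ P₀ := comm_le_of_normalizes hAN
      have h2 : ⁅⁅P₀, A⁆, A⁆ ≤ P₀ := (commutator_mono h1 le_rfl).trans h1
      have h3 : ⁅⁅P₀, A⁆, A⁆ ≤ π.ker := by
        rw [← Subgroup.map_eq_bot_iff, map_commutator, map_commutator, hP₀map, hAmap, hq]
      rw [eq_bot_iff, ← Cfsg.Agent.H12.inf_eq_bot_of_pGroup_of_coprime hP₀p hcop]
      exact le_inf h2 h3
    have key := hs.2.2 A P₀ hA hP₀p (fun a ha x hx => (mem_normalizer_iff.mp (hAN ha) x).mp hx) hcore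
      (by rw [hsup]; exact hMn) hquad
    obtain ⟨e, he⟩ := exists_automizer_equiv π hπs hcop P₀ hP₀p
    clear_value P₀
    subst hP₀map
    subst hAmap
    rintro _ ⟨⟨_, hn'⟩, ⟨a, ha, rfl⟩, rfl⟩
    have h1 : (QuotientGroup.mk' ((centralizer (P₀ : Set G)).subgroupOf (normalizer (P₀ : Set G)))) ⟨a, hAN ha⟩ ∈
        pCore p _ := key ⟨⟨a, hAN ha⟩, ha, rfl⟩
    have h2 := Cfsg.H9.map_pCore p e
    rw [← h2]
    exact ⟨_, h1, he a (hAN ha) hn'⟩

theorem isPStable_of_quotient (hO1 : pCore p G ≠ ⊥) (hs : IsPStable p (G ⧸ pPrimeCore p G)) : IsPStable p G := by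
  set O := pPrimeCore p G with hO
  set π := QuotientGroup.mk' O with hπ
  have hπs : Function.Surjective π := QuotientGroup.mk'_surjective O
  have hker : π.ker = O := QuotientGroup.ker_mk' O
  have hcop : (Nat.card π.ker).Coprime p := by rw [hker]; exact Cfsg.Agent.H12.pPrimeCore_coprime p
  have hbot : pPrimeCore p (G ⧸ O) = ⊥ := Cfsg.H9.pPrimeCore_quotient p
  refine ⟨hs.1, hO1, ?_⟩
  intro A P hA hP hnorm _ hPn hq
  have hPbn : (P.map π).Normal := by
    have h1 : (O ⊔ P).map π = P.map π := by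
      rw [Subgroup.map_sup, (Subgroup.map_eq_bot_iff O).mpr hker.ge, bot_sup_eq]
    rw [← h1]
    exact hPn.map π hπs
  have key := hs.2.2 (A.map π) (P.map π) (hA.map π) (hP.map π) (by
      rintro _ ⟨a, ha, rfl⟩ _ ⟨x, hx, rfl⟩
      exact ⟨a * x * a⁻¹, hnorm a ha x hx, by simp⟩)
    ((Cfsg.H1.le_pCore hPbn (hP.map π)).trans pCore_le_pPrimePCore)
    (by rw [hbot, bot_sup_eq]; exact hPbn)
    (by rw [← map_commutator, ← map_commutator, hq, Subgroup.map_bot])
  obtain ⟨e, he⟩ := exists_automizer_equiv π hπs hcop P hP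
  rintro _ ⟨⟨a, haN⟩, ha, rfl⟩
  have haA : a ∈ A := ha
  have hn' : π a ∈ normalizer ((P.map π : Subgroup (G ⧸ O)) : Set (G ⧸ O)) := le_normalizer_map π ⟨a, haN, rfl⟩
  have h1 : (QuotientGroup.mk' ((centralizer ((P.map π : Subgroup (G ⧸ O)) : Set (G ⧸ O))).subgroupOf
      (normalizer ((P.map π : Subgroup (G ⧸ O)) : Set (G ⧸ O))))) ⟨π a, hn'⟩ ∈ pCore p _ :=
    key ⟨⟨π a, hn'⟩, ⟨a, haA, rfl⟩, rfl⟩
  have h2 := Cfsg.H9.map_pCore p e
  rw [← h2] at h1
  obtain ⟨y, hy, hye⟩ := h1
  have h3 : y = QuotientGroup.mk ⟨a, haN⟩ := e.injective (hye.trans (he a haN hn').symm)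
  rw [h3] at hy
  exact hy

end Cfsg.Agent.Lib.Helper13
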