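import Cfsg.Agent.Lib.Helper13.PStab5

set_option autoImplicit false
open Cfsg

/-! The functors `Q ↦ J_e(Q)` (generated by `maxAb e`) and `Q ↦ Z(Q)`. -/

namespace Cfsg.Agent.Lib.Helper13

open Subgroup
open scoped commutatorElement

universe u

/-- the subgroup generated by the members of `maxAb e T` -/
def jAb {G : Type*} [Group G] (e : ℕ) (T : Subgroup G) : Subgroup G := sSup (maxAb e T)

theorem jAb_le {G : Type*} [Group G] (e : ℕ) (T : Subgroup G) : jAb e T ≤ T := sSup_le fun _ hA => hA.1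

theorem le_jAb {G : Type*} [Group G] {e : ℕ} {T A : Subgroup G} (hA : A ∈ maxAb e T) : A ≤ jAb e T := le_sSup hA

theorem thompsonAOf_eq_jAb {G : Type*} [Group G] (T : Subgroup G) : thompsonSubgroupAOf T = jAb 0 T :=
  thompsonAOf_eq T

theorem thompsonOf_eq_jAb {G : Type*} [Group G] (p : ℕ) (T : Subgroup G) : thompsonSubgroupOf p T = jAb p T := by
  rw [thompsonOf_eq_sSup, maxEAin_eq_maxAb]
  rfl

theorem zAb_le_jAb {G : Type*} [Group G] [Finite G] (e : ℕ) (T : Subgroup G) : zAb e T ≤ jAb e T := by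
  obtain ⟨A, hA⟩ := exists_maxAb (e := e) T
  exact (zAb_le_of_mem hA).trans (le_jAb hA)

theorem jAb_le_centralizer_zAb {G : Type*} [Group G] (e : ℕ) (T : Subgroup G) :
    jAb e T ≤ centralizer (zAb e T : Set G) := by
  apply sSup_le
  intro A hA a ha
  rw [mem_centralizer_iff]
  intro z hz
  exact hA.2.1.1 z (zAb_le_of_mem hA hz) a ha

/-- `J(U) = J(S)` for `J(S) ≤ U ≤ S` -/
theorem jAb_eq_of_le {G : Type*} [Group G] [Finite G] {e : ℕ} {U S : Subgroup G} (hUS : U ≤ S)
    (hJ : jAb e S ≤ U) : jAb e U = jAb e S := by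
  have hle : ∀ A ∈ maxAb e S, A ≤ U := fun A hA => (le_jAb hA).trans hJ
  unfold jAb
  congr 1
  ext A
  constructor
  · intro hA
    obtain ⟨A₀, hA₀⟩ := exists_maxAb (e := e) S
    exact (maxAb_mono hA₀ (hle A₀ hA₀) hUS).2 hA
  · intro hA
    exact (maxAb_mono hA (hle A hA) hUS).1

theorem jAb_map_subtype {G : Type*} [Group G] (e : ℕ) (S : Subgroup G) :
    (jAb e (⊤ : Subgroup S)).map S.subtype = jAb e S := by
  apply le_antisymm
  · unfold jAb
    rw [map_le_iff_le_comap]
    apply sSup_le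
    intro A hA
    rw [← map_le_iff_le_comap]
    apply le_sSup
    apply maxAb_map_subtype (le_refl S)
    rwa [subgroupOf_self]
  · apply sSup_le
    intro A hA
    have h1 := maxAb_subgroupOf (le_refl S) hA
    rw [subgroupOf_self] at h1
    rw [← map_subgroupOf_eq_of_le hA.1]
    exact map_mono (le_jAb h1)

/-- the functor `Q ↦ J_e(Q)` -/
def WJe (e : ℕ) (Q : Type u) [Group Q] : Subgroup Q := jAb e (⊤ : Subgroup Q)

theorem inducedFunctor_WJe {G : Type u} [Group G] (e : ℕ) (S : Subgroup G) :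
    inducedFunctor (WJe e) S = jAb e S := jAb_map_subtype e S

theorem jAb_top_map_le {e : ℕ} {Q R : Type*} [Group Q] [Group R] (φ : Q ≃* R) :
    (jAb e (⊤ : Subgroup Q)).map φ.toMonoidHom ≤ jAb e (⊤ : Subgroup R) := by
  unfold jAb
  rw [map_le_iff_le_comap]
  apply sSup_le
  intro A hA
  rw [← map_le_iff_le_comap]
  apply le_sSup
  have h1 := maxAb_map φ hA
  have h2 : (⊤ : Subgroup Q).map φ.toMonoidHom = ⊤ := by
    rw [← MonoidHom.range_eq_map]
    exact MonoidHom.range_eq_top.mpr φ.surjective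
  rwa [h2] at h1

theorem isCharPFunctor_WJe {p : ℕ} [hp : Fact p.Prime] {e : ℕ} (he : e = 0 ∨ p ∣ e) :
    IsCharPFunctor.{u} p (WJe e) := by
  constructor
  · intro Q _ _ hQ hnt hbot
    apply (isCharPFunctor_WZ (p := p) he).1 Q hQ hnt
    rw [eq_bot_iff, ← hbot]
    exact zAb_le_jAb e ⊤
  · intro Q R _ _ _ _ φ
    apply le_antisymm (jAb_top_map_le φ)
    intro y hy
    refine ⟨φ.symm y, ?_, by simp⟩
    exact jAb_top_map_le φ.symm ⟨y, hy, rfl⟩

/-- the functor `Q ↦ Z(Q)` -/
def WC (Q : Type u) [Group Q] : Subgroup Q := center Q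

theorem inducedFunctor_WC {G : Type u} [Group G] (S : Subgroup G) :
    inducedFunctor WC S = S ⊓ centralizer (S : Set G) := by
  ext x
  constructor
  · rintro ⟨z, hz, rfl⟩
    refine mem_inf.mpr ⟨z.2, ?_⟩
    rw [mem_centralizer_iff]
    intro y hy
    exact congrArg Subtype.val (mem_center_iff.mp hz ⟨y, hy⟩)
  · rintro ⟨hx, hxc⟩
    refine ⟨⟨x, hx⟩, ?_, rfl⟩
    change _ ∈ center S
    rw [mem_center_iff]
    intro y
    exact Subtype.ext (mem_centralizer_iff.mp hxc y.1 y.2)

theorem isCharPFunctor_WC {p : ℕ} [hp : Fact p.Prime] : IsCharPFunctor.{u} p WC := by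
  constructor
  · intro Q _ _ hQ hnt hbot
    have h1 : Nontrivial (center Q) := hQ.center_nontrivial
    exact (nontrivial_iff_ne_bot _).mp h1 hbot
  · intro Q R _ _ _ _ φ
    ext y
    constructor
    · rintro ⟨z, hz, rfl⟩
      change _ ∈ center R
      rw [mem_center_iff]
      intro r
      obtain ⟨q, rfl⟩ := φ.surjective r
      change φ q * φ z = φ z * φ q
      rw [← map_mul, ← map_mul, mem_center_iff.mp hz q]
    · intro hy
      refine ⟨φ.symm y, ?_, by simp⟩
      change _ ∈ center Q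
      rw [mem_center_iff]
      intro q
      apply φ.injective
      rw [map_mul, map_mul, φ.apply_symm_apply]
      exact mem_center_iff.mp hy (φ q)

end Cfsg.Agent.Lib.Helper13
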