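import Cfsg.Agent.Lib.Helper13.PStab5
import Cfsg.Agent.S0055
import Cfsg.Agent.S0056

set_option autoImplicit false
open Cfsg

/-! The minimal configuration: solvability, and the centre of a Sylow subgroup. -/

namespace Cfsg.Agent.Lib.Helper13

open Subgroup
open scoped commutatorElement

variable {X : Type*} [Group X] {p : ℕ}

/-- a `p'`-complement of `B` in `K` -/
theorem InD.exists_complement [Finite X] [hp : Fact p.Prime] {B K : Subgroup X} (h : InD p B K) :
    ∃ Q : Subgroup X, Q ≤ K ∧ (Nat.card Q).Coprime p ∧ ∀ k ∈ K, ∃ b ∈ B, ∃ q ∈ Q, k = b * q := by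
  have hBn := h.hBn
  have hn : (B.subgroupOf K).Normal := inferInstance
  have hidx : ¬ p ∣ (B.subgroupOf K).index := by
    intro hd
    obtain ⟨kb, hkb⟩ := exists_prime_orderOf_dvd_card' (G := K ⧸ B.subgroupOf K) p hd
    obtain ⟨k, rfl⟩ := QuotientGroup.mk_surjective kb
    have h1 : k ^ p ∈ B.subgroupOf K := by
      rw [← QuotientGroup.eq_one_iff, QuotientGroup.mk_pow, ← hkb, pow_orderOf_eq_one]
    obtain ⟨j, hj⟩ := h.hBp ⟨(k : X) ^ p, h1⟩
    have h2 : (k : X) ^ p ^ (j + 1) = 1 := by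
      rw [pow_succ', pow_mul]
      exact congrArg Subtype.val hj
    have h3 : (k : X) ∈ B := h.hpel k k.2 ⟨_, h2⟩
    have h4 : (QuotientGroup.mk k : K ⧸ B.subgroupOf K) = 1 := (QuotientGroup.eq_one_iff k).mpr h3
    rw [h4, orderOf_one] at hkb
    exact hp.out.one_lt.ne hkb
  have hcop : (Nat.card (B.subgroupOf K)).Coprime (B.subgroupOf K).index := by
    obtain ⟨j, hj⟩ := (h.hBp.comap_of_injective K.subtype K.subtype_injective).exists_card_eq
    change Nat.card (B.subgroupOf K) = p ^ j at hj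
    rw [hj]
    exact Nat.Coprime.pow_left j ((Nat.Prime.coprime_iff_not_dvd hp.out).mpr hidx)
  obtain ⟨Q', hQ'⟩ := exists_right_complement'_of_coprime hcop
  refine ⟨Q'.map K.subtype, map_subtype_le _, ?_, ?_⟩
  · rw [card_map_of_injective K.subtype_injective, ← hQ'.symm.index_eq_card]
    exact (Nat.coprime_comm.mp ((Nat.Prime.coprime_iff_not_dvd hp.out).mpr hidx))
  · intro k hk
    have h1 : (⟨k, hk⟩ : K) ∈ B.subgroupOf K ⊔ Q' := by
      rw [hQ'.sup_eq_top]
      exact mem_top _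
    rw [mem_sup_of_normal_left] at h1
    obtain ⟨b, hb, q, hq, hbq⟩ := h1
    exact ⟨b.1, hb, q.1, ⟨q, hq, rfl⟩, (congrArg Subtype.val hbq).symm⟩

/-- if `Ω₁(Z(T))` is central then so is `Z(T)` -/
theorem InD.centralizer_center_eq_top [Finite X] [hp : Fact p.Prime] {B K : Subgroup X} (h : InD p B K)
    (hc : centralizer (B : Set X) ≤ B) (T : Sylow p X) (hBT : B ≤ (T : Subgroup X))
    (hΩ : ∀ z ∈ (T : Subgroup X) ⊓ centralizer ((T : Subgroup X) : Set X), z ^ p = 1 → ∀ x : X, x * z = z * x) :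
    centralizer (((T : Subgroup X) ⊓ centralizer ((T : Subgroup X) : Set X) : Subgroup X) : Set X) = ⊤ := by
  have hBn := h.hBn
  have hKn := h.hKn
  obtain ⟨Q, hQK, hQc, hdec⟩ := h.exists_complement
  set Y := B ⊓ centralizer (B : Set X) with hY
  have hYn : Y.Normal := inferInstance
  have hYcomm : ∀ x ∈ Y, ∀ y ∈ Y, x * y = y * x := inf_centralizer_comm B
  have hYp : IsPGroup p Y := h.hBp.to_le inf_le_left
  set Y1 := omegaOne p Y with hY1
  have hY1n : Y1.Normal := omegaOne_normal Y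
  have hY1Y : Y1 ≤ Y := omegaOne_le Y
  have hY1E : IsElementaryAbelian p Y1 := isEA_omegaOne hYcomm
  have hBcY : ∀ b ∈ B, ∀ y ∈ Y, b * y = y * b := fun b hb y hy => mem_centralizer_iff.mp hy.2 b hb
  -- `[Y1, K] ≤ [Y1, Q]`
  have hN : ⁅Y1, K⁆ ≤ ⁅Y1, Q⁆ := by
    rw [commutator_le]
    intro y hy k hk
    obtain ⟨b, hb, q, hq, rfl⟩ := hdec k hk
    have h1 : ⁅y, q⁆ ∈ Y1 := by
      have : ⁅y, q⁆ = y * (q * y⁻¹ * q⁻¹) := by rw [commutatorElement_def]; group
      rw [this]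
      exact mul_mem hy (hY1n.conj_mem _ (inv_mem hy) q)
    have h2 : ⁅y, b * q⁆ = b * ⁅y, q⁆ * b⁻¹ := by
      have e1 := hBcY b hb y (hY1Y hy)
      have e2 : y * b * q * y⁻¹ * q⁻¹ * b⁻¹ = b * y * q * y⁻¹ * q⁻¹ * b⁻¹ := by rw [e1]
      calc ⁅y, b * q⁆ = y * b * q * y⁻¹ * q⁻¹ * b⁻¹ := by rw [commutatorElement_def]; group
        _ = b * y * q * y⁻¹ * q⁻¹ * b⁻¹ := e2
        _ = b * ⁅y, q⁆ * b⁻¹ := by rw [commutatorElement_def]; group
    rw [h2, hBcY b hb _ (hY1Y h1), mul_inv_cancel_right]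
    exact commutator_mem_commutator hy hq
  have hcopQ : ∀ U : Subgroup X, IsPGroup p U → (Nat.card Q).Coprime (Nat.card U) := by
    intro U hU
    obtain ⟨j, hj⟩ := hU.exists_card_eq
    rw [hj]
    exact Nat.Coprime.pow_right j hQc
  have hNbot : ⁅Y1, K⁆ = ⊥ := by
    by_contra hne
    have hNn : (⁅Y1, K⁆).Normal := inferInstance
    have hNY1 : ⁅Y1, K⁆ ≤ Y1 := commutator_le_left _ _
    have h1 := inf_centralizer_ne_bot (p := p) (V := Y1) (A := (T : Subgroup X)) (IsEA.isPGroup hY1E)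
      (by rw [normalizer_eq_top]; exact le_top)
      (fun a ha => by
        obtain ⟨k, hk⟩ := T.2 ⟨a, ha⟩
        refine ⟨k, ?_⟩
        have : a ^ p ^ k = 1 := congrArg Subtype.val hk
        rw [this]
        exact one_mem _)
      ⁅Y1, K⁆ hNY1 (by rw [normalizer_eq_top]; exact le_top) hne
    apply h1
    rw [eq_bot_iff]
    rintro z ⟨hzN, hzT⟩
    have hzY1 : z ∈ Y1 := hNY1 hzN
    have hzc := hΩ z (mem_inf.mpr ⟨hBT (hY1Y hzY1).1, hzT⟩) (hY1E.2 z hzY1)
    have : IsMulCommutative Y1 := hY1E.1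
    have h2 := (Cfsg.Agent.S0055.result Q Y1 (by rw [normalizer_eq_top]; exact le_top)
      (hcopQ Y1 (IsEA.isPGroup hY1E))).1
    rw [← h2]
    refine mem_inf.mpr ⟨mem_inf.mpr ⟨hzY1, ?_⟩, hN hzN⟩
    rw [mem_centralizer_iff]
    intro q _
    exact hzc q
  have hQY : Q ≤ centralizer (Y : Set X) := by
    have : IsMulCommutative Y := ⟨⟨fun a b => Subtype.ext (hYcomm a.1 a.2 b.1 b.2)⟩⟩
    apply Cfsg.Agent.S0056.result Q Y (by rw [normalizer_eq_top]; exact le_top) (hcopQ Y hYp)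
    intro v hv hvo a ha
    have hvp : v ^ p = 1 := by
      obtain ⟨j, hj⟩ := hYp ⟨v, hv⟩
      have h1 : v ^ p ^ j = 1 := congrArg Subtype.val hj
      have h2 : orderOf v ∣ p ^ j := orderOf_dvd_of_pow_eq_one h1
      have h3 : orderOf v = p := (Nat.prime_dvd_prime_iff_eq hvo hp.out).mp (hvo.dvd_of_dvd_pow h2 |> fun h => by
        exact (Nat.Prime.dvd_of_dvd_pow hvo h2))
      rw [← h3]
      exact pow_orderOf_eq_one v
    have hv1 : v ∈ Y1 := mem_omegaOne hv hvp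
    have h4 : ⁅v, a⁆ ∈ ⁅Y1, K⁆ := commutator_mem_commutator hv1 (hQK ha)
    rw [hNbot, mem_bot] at h4
    exact (commutatorElement_eq_one_iff_mul_comm.mp h4).symm
  have hKY : K ≤ centralizer (Y : Set X) := by
    intro k hk
    obtain ⟨b, hb, q, hq, rfl⟩ := hdec k hk
    refine mul_mem ?_ (hQY hq)
    rw [mem_centralizer_iff]
    intro y hy
    exact (hBcY b hb y hy).symm
  have hZY : (T : Subgroup X) ⊓ centralizer ((T : Subgroup X) : Set X) ≤ Y := by
    intro z hz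
    have h1 : z ∈ centralizer (B : Set X) := centralizer_le hBT hz.2
    exact mem_inf.mpr ⟨hc h1, h1⟩
  rw [eq_top_iff, ← h.sup_sylow T]
  refine sup_le (hKY.trans (centralizer_le hZY)) ?_
  rw [le_centralizer_iff]
  exact inf_le_right

end Cfsg.Agent.Lib.Helper13
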