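import Cfsg.Agent.Lib.Helper13.NPC5

set_option autoImplicit false
open Cfsg

/-! Normal `p`-complements: the engine for a normalizer condition and a centralizer condition. -/

namespace Cfsg.Agent.Lib.Helper13

open Subgroup
open scoped commutatorElement

universe u

variable {p : ℕ}

theorem map_centralizer_le {Y Z : Type*} [Group Y] [Group Z] (ι : Y →* Z) (D : Subgroup Y) :
    (centralizer (D : Set Y)).map ι ≤ centralizer ((D.map ι : Subgroup Z) : Set Z) := by
  rintro _ ⟨c, hc, rfl⟩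
  rw [mem_centralizer_iff]
  rintro _ ⟨d, hd, rfl⟩
  rw [← map_mul, ← map_mul, mem_centralizer_iff.mp hc d hd]

theorem npc_centralizer_of_map [Fact p.Prime] {Y Z : Type*} [Group Y] [Group Z] [Finite Z] (ι : Y →* Z)
    (hι : Function.Injective ι) (D : Subgroup Y)
    (h : HasNormalPComplement p (centralizer ((D.map ι : Subgroup Z) : Set Z))) :
    HasNormalPComplement p (centralizer (D : Set Y)) := by
  have h1 := npc_of_le (map_centralizer_le ι D) h
  exact npc_congr ((centralizer (D : Set Y)).equivMapOfInjective _ hι).symm h1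

/-- centralizers of `p`-subgroups modulo a normal `p'`-subgroup -/
theorem centralizer_map_of_coprime_ker [Fact p.Prime] {H H' : Type*} [Group H] [Group H'] [Finite H] {π : H →* H'}
    (hπ : Function.Surjective π) (hD : (Nat.card π.ker).Coprime p) {X : Subgroup H} (hX : IsPGroup p X) :
    centralizer ((X.map π : Subgroup H') : Set H') = (centralizer (X : Set H)).map π := by
  apply le_antisymm _ (map_centralizer_le π X)
  intro y hy
  have h1 : y ∈ normalizer ((X.map π : Subgroup H') : Set H') := centralizer_le_normalizer _ hy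
  rw [Cfsg.Agent.H12.normalizer_map_of_coprime_ker hπ hD hX] at h1
  obtain ⟨n, hn, rfl⟩ := h1
  refine ⟨n, ?_, rfl⟩
  rw [SetLike.mem_coe, mem_centralizer_iff]
  intro x hx
  have h2 : n * x * n⁻¹ ∈ X := (mem_normalizer_iff.mp hn x).mp hx
  have h3 : π (n * x * n⁻¹) = π x := by
    rw [map_mul, map_mul, map_inv, ← mem_centralizer_iff.mp hy (π x) ⟨x, hx, rfl⟩, mul_inv_cancel_right]
  have h4 := Cfsg.Agent.H12.injOn_of_coprime_ker hD hX h2 hx h3
  conv_lhs => rw [← h4]
  group

/-- the local hypothesis attached to two functors -/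
def FunP2 (p : ℕ) (W₁ W₂ : ∀ (Q : Type u) [Group Q], Subgroup Q) (X : Type u) [Group X] : Prop :=
  ∀ S : Sylow p X, HasNormalPComplement p (normalizer ((inducedFunctor W₁ (S : Subgroup X) : Subgroup X) : Set X)) ∧
    HasNormalPComplement p (centralizer ((inducedFunctor W₂ (S : Subgroup X) : Subgroup X) : Set X))

variable {W₁ W₂ : ∀ (Q : Type u) [Group Q], Subgroup Q}

theorem FunP2.left {X : Type u} [Group X] (h : FunP2 p W₁ W₂ X) : FunP p W₁ X := fun S => (h S).1

theorem FunP2.p1 [Fact p.Prime] (hW₁ : IsCharPFunctor.{u} p W₁) (hW₂ : IsCharPFunctor.{u} p W₂)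
    (X : Type u) [Group X] [Finite X] (h : FunP2 p W₁ W₂ X)
    (M : Subgroup X) (hM : ¬ p ∣ M.index) : FunP2 p W₁ W₂ M := by
  intro S
  refine ⟨FunP.p1 hW₁ X h.left M hM S, ?_⟩
  have hidx : ¬ p ∣ ((S : Subgroup M).map M.subtype).index := by
    rw [index_map_subtype]
    intro hd
    rcases (Fact.out : p.Prime).dvd_mul.mp hd with h1 | h1
    · exact S.not_dvd_index h1
    · exact hM h1
  have h1 := (h ((S.2.map M.subtype).toSylow hidx)).2
  rw [IsPGroup.toSylow_coe, ← Cfsg.Agent.H12.inducedFunctor_map hW₂ M.subtype _ S.2 M.subtype_injective.injOn] at h1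
  exact npc_centralizer_of_map M.subtype M.subtype_injective _ h1

theorem FunP2.p2 [Fact p.Prime] (hW₁ : IsCharPFunctor.{u} p W₁) (hW₂ : IsCharPFunctor.{u} p W₂)
    (Y : Type u) [Group Y] [Finite Y] (h : ¬ FunP2 p W₁ W₂ Y) :
    ∃ (T : Sylow p Y) (D : Subgroup Y),
    D ≤ (T : Subgroup Y) ∧ D ≠ ⊥ ∧ ¬ HasNormalPComplement p (normalizer (D : Set Y)) ∧
      ∀ (Z : Type u) [Group Z] (ι : Y →* Z), Function.Injective ι →
        normalizer (((T : Subgroup Y).map ι : Subgroup Z) : Set Z) ≤ normalizer ((D.map ι : Subgroup Z) : Set Z) := by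
  by_cases h1 : FunP p W₁ Y
  · apply FunP.p2 hW₂ Y
    intro h2
    apply h
    intro S
    exact ⟨h1 S, npc_of_le (centralizer_le_normalizer _) (h2 S)⟩
  · exact FunP.p2 hW₁ Y h1

theorem FunP2.p4 [Fact p.Prime] (hW₁ : IsCharPFunctor.{u} p W₁) (hW₂ : IsCharPFunctor.{u} p W₂)
    (X : Type u) [Group X] [Finite X] (h : FunP2 p W₁ W₂ X) :
    FunP2 p W₁ W₂ (X ⧸ pPrimeCore p X) := by
  intro Sb
  refine ⟨FunP.p4 hW₁ X h.left Sb, ?_⟩
  have hsurj := QuotientGroup.mk'_surjective (pPrimeCore p X)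
  obtain ⟨S, rfl⟩ := Sylow.mapSurjective_surjective hsurj p Sb
  have hker : (Nat.card (QuotientGroup.mk' (pPrimeCore p X)).ker).Coprime p := by
    rw [QuotientGroup.ker_mk']
    exact Cfsg.Agent.H12.pPrimeCore_coprime p
  rw [Sylow.coe_mapSurjective, ← Cfsg.Agent.H12.inducedFunctor_map hW₂ _ _ S.2
    (Cfsg.Agent.H12.injOn_of_coprime_ker hker S.2),
    centralizer_map_of_coprime_ker hsurj hker (S.2.to_le (Cfsg.Agent.H12.inducedFunctor_le _))]
  exact npc_of_surjective ((QuotientGroup.mk' (pPrimeCore p X)).subgroupMap _)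
    ((QuotientGroup.mk' (pPrimeCore p X)).subgroupMap_surjective _) (h S).2

theorem FunP2.of_one [Fact p.Prime] (hW₁ : IsCharPFunctor.{u} p W₁) (hW₂ : IsCharPFunctor.{u} p W₂)
    {X : Type u} [Group X] [Finite X] (S : Sylow p X)
    (hN : HasNormalPComplement p (normalizer ((inducedFunctor W₁ (S : Subgroup X) : Subgroup X) : Set X)))
    (hC : HasNormalPComplement p (centralizer ((inducedFunctor W₂ (S : Subgroup X) : Subgroup X) : Set X))) :
    FunP2 p W₁ W₂ X := by
  intro S'
  obtain ⟨g, rfl⟩ := MulAction.exists_smul_eq X S S'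
  have h1 : ((g • S : Sylow p X) : Subgroup X) = (S : Subgroup X).map (MulAut.conj g).toMonoidHom := rfl
  have h3 : (MulAut.conj g⁻¹).toMonoidHom.comp (MulAut.conj g).toMonoidHom = MonoidHom.id X := by
    ext x
    simp
    group
  have h2 : ∀ D : Subgroup X, (D.map (MulAut.conj g).toMonoidHom).map (MulAut.conj g⁻¹).toMonoidHom = D := by
    intro D
    rw [Subgroup.map_map, h3, Subgroup.map_id]
  rw [h1, ← Cfsg.Agent.H12.inducedFunctor_map hW₁ _ _ S.2 (MulAut.conj g).injective.injOn,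
    ← Cfsg.Agent.H12.inducedFunctor_map hW₂ _ _ S.2 (MulAut.conj g).injective.injOn]
  constructor
  · apply npc_normalizer_of_map (MulAut.conj g⁻¹).toMonoidHom (MulAut.conj g⁻¹).injective
    rw [h2]
    exact hN
  · apply npc_centralizer_of_map (MulAut.conj g⁻¹).toMonoidHom (MulAut.conj g⁻¹).injective
    rw [h2]
    exact hC

/-- the engine for two functors -/
theorem npc_of_two_functors [Fact p.Prime] (hW₁ : IsCharPFunctor.{u} p W₁) (hW₂ : IsCharPFunctor.{u} p W₂)
    (C : ∀ (X : Type u) [Group X], Prop)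
    (hsub : ∀ (X : Type u) [Group X] [Finite X], C X → ∀ M : Subgroup X, C M)
    (hquot : ∀ (X : Type u) [Group X] [Finite X], C X → ∀ (N : Subgroup X) [N.Normal], C (X ⧸ N))
    (hloc : ∀ (X : Type u) [Group X] [Finite X], C X → FunP2 p W₁ W₂ X → pPrimeCore p X = ⊥ →
      centralizer (pCore p X : Set X) ≤ pCore p X → HasNormalPComplement p (X ⧸ pCore p X) →
      (∀ S : Sylow p X, IsCoatom (S : Subgroup X)) → HasNormalPComplement p X)
    (X : Type u) [Group X] [Finite X] (hC : C X) (S : Sylow p X)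
    (hN : HasNormalPComplement p (normalizer ((inducedFunctor W₁ (S : Subgroup X) : Subgroup X) : Set X)))
    (hZ : HasNormalPComplement p (centralizer ((inducedFunctor W₂ (S : Subgroup X) : Subgroup X) : Set X))) :
    HasNormalPComplement p X := by
  have E : NPCEngine p C (FunP2 p W₁ W₂) :=
    ⟨hsub, hquot, FunP2.p1 hW₁ hW₂, FunP2.p2 hW₁ hW₂, FunP2.p4 hW₁ hW₂, hloc⟩
  exact E.result X hC (FunP2.of_one hW₁ hW₂ S hN hZ)

end Cfsg.Agent.Lib.Helper13
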