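import Cfsg.Agent.Lib.Helper13.Puig4
import Cfsg.Agent.Lib.Helper13.FunFact
import Cfsg.Agent.Lib.Helper13.Thompson

set_option autoImplicit false
open Cfsg

/-! Puig's theorem for solvable groups of odd order. -/

universe u

namespace Cfsg.Agent.Lib.Helper13

open Subgroup

theorem isMulCommutative_inf_centralizer {G : Type*} [Group G] (L : Subgroup G) :
    IsMulCommutative (L ⊓ centralizer (L : Set G) : Subgroup G) := by
  refine ⟨⟨?_⟩⟩
  rintro ⟨a, ha⟩ ⟨b, hb⟩
  apply Subtype.ext
  exact (mem_centralizer_iff.mp hb.2) a ha.1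

theorem puig_center_normal {G : Type*} [Group G] [Finite G] [Group.IsSolvable G] (hodd : Odd (Nat.card G))
    (p : ℕ) [Fact p.Prime] (hp : p ≠ 2) (hO : pPrimeCore p G = ⊥) (S : Sylow p G) :
    (pUp (S : Subgroup G) ⊓ centralizer (pUp (S : Subgroup G) : Set G)).Normal := by
  have hTn : (pCore p G).Normal := Cfsg.H1.pCore_normal p
  have hTS : pCore p G ≤ (S : Subgroup G) := pCore_le_sylow S
  have hTp : IsPGroup p (pCore p G) := Cfsg.H1.pCore_isPGroup p
  obtain ⟨k1, hk1⟩ := exists_pSeqIn_stab (S : Subgroup G)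
  obtain ⟨k2, hk2⟩ := exists_pSeqIn_stab (pCore p G)
  have hcmp := pSeqIn_compare hodd p hp hO S (max k1 k2)
  rw [(hk1 _ (le_max_left k1 k2)).1, (hk1 _ (le_max_left k1 k2)).2, (hk2 _ (le_max_right k1 k2)).1,
    (hk2 _ (le_max_right k1 k2)).2] at hcmp
  obtain ⟨hLL, hUU⟩ := hcmp
  have hUTn : (pUp (pCore p G)).Normal := by
    rw [← (hk2 k2 le_rfl).2]
    exact pSeqIn_normal _ _
  set US := pUp (S : Subgroup G) with hUS
  set LS := pLo (S : Subgroup G) with hLS
  set UT := pUp (pCore p G) with hUT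
  set X := US ⊓ centralizer (US : Set G) with hX
  set Y := UT ⊓ centralizer (UT : Set G) with hY
  have hYn : Y.Normal := inferInstance
  have hX_LS : X ≤ LS := by
    rw [hLS, ← pStepIn_pUp]
    exact le_pStepIn (inf_le_left.trans (pUp_le _)) (isMulCommutative_inf_centralizer _)
      (le_normalizer.trans (normalizer_le_normalizer_inf_centralizer US))
  have hXY : X ≤ Y :=
    le_inf (hX_LS.trans (hLL.trans (pLo_le_pUp _))) (inf_le_right.trans (centralizer_le hUU))
  have hY_LS : Y ≤ LS := by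
    rw [hLS, ← pStepIn_pUp]
    refine le_pStepIn (inf_le_left.trans ((pUp_le _).trans hTS)) (isMulCommutative_inf_centralizer _) ?_
    rw [normalizer_eq_top_iff.mpr hYn]
    exact le_top
  have hYp : IsPGroup p Y := hTp.to_le (inf_le_left.trans (pUp_le _))
  have h1 := (Cfsg.Agent.S1465.result hodd p hp Y hYp
    {A : Subgroup G | A ≤ (S : Subgroup G) ∧ IsMulCommutative A ∧ LS ≤ normalizer (A : Set G)}
    (fun B hB => ⟨hB.2.1, S.2.to_le hB.1, hY_LS.trans hB.2.2⟩)).1
  change (pStepIn (S : Subgroup G) LS).map _ ≤ _ at h1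
  rw [hLS, pStepIn_pLo, ← hUS] at h1
  set C := centralizer (Y : Set G) with hC
  set π := QuotientGroup.mk' C with hπ
  have hπs : Function.Surjective π := QuotientGroup.mk'_surjective C
  have hcn : (pCore p (G ⧸ C)).Normal := Cfsg.H1.pCore_normal p
  set G1 := (pCore p (G ⧸ C)).comap π with hG1
  have hG1n : G1.Normal := inferInstance
  have hUS_G1 : US ≤ G1 := map_le_iff_le_comap.mp h1
  have hUp : pUp ((S : Subgroup G) ⊓ G1) = US := pUp_eq_of_le (le_inf (pUp_le _) hUS_G1) inf_le_left
  have hN : normalizer (((S : Subgroup G) ⊓ G1 : Subgroup G) : Set G) ≤ normalizer (X : Set G) := by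
    refine (normalizer_le_normalizer_pUp _).trans ?_
    rw [hUp]
    exact normalizer_le_normalizer_inf_centralizer US
  rw [← normalizer_eq_top_iff, eq_top_iff]
  intro g _
  obtain ⟨c, hc, n, hn, rfl⟩ := frattini_inf S G1 g
  refine mul_mem ?_ (hN hn)
  have h2 : π c ∈ ((S.mapSurjective hπs : Sylow p (G ⧸ C)) : Subgroup (G ⧸ C)) := pCore_le_sylow _ hc
  rw [Sylow.coe_mapSurjective] at h2
  obtain ⟨s, hs, hsc⟩ := h2
  have hs1 : s ∈ (S : Subgroup G) ⊓ G1 := by
    refine mem_inf.mpr ⟨hs, ?_⟩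
    rw [hG1, mem_comap, hsc]
    exact hc
  have hz : s⁻¹ * c ∈ C := by
    rw [← QuotientGroup.ker_mk' C, MonoidHom.mem_ker]
    change π (s⁻¹ * c) = 1
    rw [map_mul, map_inv, hsc]
    simp
  have hz2 : s⁻¹ * c ∈ normalizer (X : Set G) := by
    have h3 : s⁻¹ * c ∈ centralizer (X : Set G) := centralizer_le hXY hz
    exact centralizer_le_normalizer _ h3
  have : c = s * (s⁻¹ * c) := by group
  rw [this]
  exact mul_mem (hN (le_normalizer hs1)) hz2

/-- the functor `Z(L(Q))`. -/
def zPuig (Q : Type u) [Group Q] : Subgroup Q := (center ↥(puigSubgroup Q)).map (puigSubgroup Q).subtype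

theorem puigSubgroup_map_equiv {Q R : Type*} [Group Q] [Group R] [Finite Q] (φ : Q ≃* R) :
    (puigSubgroup Q).map φ.toMonoidHom = puigSubgroup R := by
  haveI : Finite R := Finite.of_equiv Q φ.toEquiv
  obtain ⟨k1, hk1⟩ := (Cfsg.Agent.S1467.result (G := Q)).2.2.2.1
  obtain ⟨k2, hk2⟩ := (Cfsg.Agent.S1467.result (G := R)).2.2.2.1
  rw [← (hk1 _ (le_max_left k1 k2)).2, ← (hk2 _ (le_max_right k1 k2)).2, puigSeq_map_equiv]

theorem zPuig_eq (Q : Type u) [Group Q] :
    zPuig Q = puigSubgroup Q ⊓ centralizer (puigSubgroup Q : Set Q) := by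
  have := center_map_map (MonoidHom.id Q) Function.injective_id (puigSubgroup Q)
  rw [Subgroup.map_id, Subgroup.map_id] at this
  exact this

theorem isCharPFunctor_zPuig (p : ℕ) [Fact p.Prime] :
    IsCharPFunctor.{u} p (fun (Q : Type u) [Group Q] => zPuig Q) := by
  constructor
  · intro Q _ _ hQ hnt
    haveI : Group.IsNilpotent Q := hQ.isNilpotent
    obtain ⟨k, hk⟩ := (Cfsg.Agent.S1467.result (G := Q)).2.2.2.1
    have hup : centralizer ((puigSubgroup Q : Subgroup Q) : Set Q) ≤ puigSubgroup Q := by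
      rw [← (hk k le_rfl).2]
      exact centralizer_puigSeq_le (2 * k)
    have hne : puigSubgroup Q ≠ ⊥ := by
      intro h
      rw [h] at hup
      have h1 : (⊤ : Subgroup Q) ≤ ⊥ := by
        refine le_trans ?_ hup
        intro x _
        rw [mem_centralizer_iff]
        intro y hy
        rw [SetLike.mem_coe, mem_bot] at hy
        rw [hy]; simp
      exact top_ne_bot (le_bot_iff.mp h1)
    haveI : Nontrivial ↥(puigSubgroup Q) := (nontrivial_iff_ne_bot _).mpr hne
    have h2 : Nontrivial (center ↥(puigSubgroup Q)) := (hQ.to_subgroup _).center_nontrivial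
    intro h3
    change (center ↥(puigSubgroup Q)).map (puigSubgroup Q).subtype = ⊥ at h3
    rw [map_eq_bot_iff_of_injective _ (subtype_injective _)] at h3
    exact ((nontrivial_iff_ne_bot _).mp h2) h3
  · intro Q R _ _ _ _ φ
    change ((center ↥(puigSubgroup Q)).map (puigSubgroup Q).subtype).map φ.toMonoidHom = zPuig R
    rw [center_map_map _ φ.injective, puigSubgroup_map_equiv, zPuig_eq]

theorem inducedFunctor_zPuig {G : Type u} [Group G] (H : Subgroup G) :
    inducedFunctor (fun (Q : Type u) [Group Q] => zPuig Q) H = pUp H ⊓ centralizer (pUp H : Set G) :=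
  center_map_map H.subtype H.subtype_injective _

theorem puig_factorization {G : Type u} [Group G] [Finite G] [Group.IsSolvable G] (hodd : Odd (Nat.card G))
    (p : ℕ) [Fact p.Prime] (hp : p ≠ 2) (S : Sylow p G) :
    pPrimeCore p G ⊔ normalizer ((pUp (S : Subgroup G) ⊓ centralizer (pUp (S : Subgroup G) : Set G) : Subgroup G) : Set G) = ⊤ := by
  rw [← inducedFunctor_zPuig]
  apply functor_factorization (isCharPFunctor_zPuig p)
  rw [inducedFunctor_zPuig]
  have hπs : Function.Surjective (QuotientGroup.mk' (pPrimeCore p G)) := QuotientGroup.mk'_surjective _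
  have hodd' : Odd (Nat.card (G ⧸ pPrimeCore p G)) := by
    have h1 : Nat.card (G ⧸ pPrimeCore p G) ∣ Nat.card G := Subgroup.card_dvd_of_surjective _ hπs
    exact Odd.of_dvd_nat hodd h1
  have := puig_center_normal hodd' p hp (Cfsg.Agent.H12.pPrimeCore_quotient_eq_bot p) (S.mapSurjective hπs)
  rw [Sylow.coe_mapSurjective] at this
  exact this

end Cfsg.Agent.Lib.Helper13
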