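import Cfsg.Agent.Lib.Helper13.SL2Q8

set_option autoImplicit false
open Cfsg

/-! Faithful quadratic pairs produce a section `SL₂(p)` (repackaging of helper12's `exists_natData`). -/

universe u

namespace Cfsg.Agent.Lib.Helper13

open Subgroup Matrix
open scoped commutatorElement

variable {p : ℕ} [Fact p.Prime] {G : Type*} [Group G]

theorem exists_SL2_of_quad_pair [Finite G] (hp : p ≠ 2) (V H : Subgroup G) (hV : IsElementaryAbelian p V)
    (hHV : H ≤ normalizer (V : Set G)) (hf : H ⊓ centralizer (V : Set G) = ⊥) {x y : G} (hx : x ∈ H) (hy : y ∈ H)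
    (qx : ⁅⁅V, zpowers x⁆, zpowers x⁆ = ⊥) (qy : ⁅⁅V, zpowers y⁆, zpowers y⁆ = ⊥)
    (hnp : ∃ l ∈ closure {x, y}, ∀ n : ℕ, l ^ (p ^ n) ≠ 1) :
    ∃ (K : Subgroup G) (f : K →* SpecialLinearGroup (Fin 2) (ZMod p)), K ≤ H ∧ Function.Surjective f := by
  have hcl : closure {x, y} ≤ H := by
    rw [closure_le]
    rintro z (rfl | hz)
    · exact hx
    · rw [Set.mem_singleton_iff] at hz
      subst hz
      exact hy
  obtain ⟨l, hl, hln⟩ := hnp
  obtain ⟨K, D, -, hK, -⟩ := Cfsg.Agent.H12.Dk.exists_natData p hp V hV (hHV hx) (hHV hy)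
    (Cfsg.Agent.H12.Dk.quadOn_of_comm qx) (Cfsg.Agent.H12.Dk.quadOn_of_comm qy) ⟨l, hl, fun n hn => hln n (by
      have : l ^ (p ^ n) ∈ H ⊓ centralizer (V : Set G) := mem_inf.mpr ⟨pow_mem (hcl hl) _, hn⟩
      rw [hf] at this
      exact this)⟩
  exact ⟨K, D.ρ, hK.trans hcl, D.ρ_surj⟩

theorem exists_SL2_of_quad_elt [Finite G] (hp : p ≠ 2) (V H : Subgroup G) (hV : IsElementaryAbelian p V)
    (hHV : H ≤ normalizer (V : Set G)) (hf : H ⊓ centralizer (V : Set G) = ⊥) {a : G} (haH : a ∈ H)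
    (hq : ⁅⁅V, zpowers a⁆, zpowers a⁆ = ⊥) (hna : a ∉ (pCore p H).map H.subtype) :
    ∃ (K : Subgroup G) (f : K →* SpecialLinearGroup (Fin 2) (ZMod p)), K ≤ H ∧ Function.Surjective f := by
  have hVp : IsPGroup p V := IsEA.isPGroup hV
  obtain ⟨r, hr⟩ := IsPGroup.iff_card.mp hVp
  have hpow : ∃ n : ℕ, (⟨a, haH⟩ : H) ^ (p ^ n) = 1 := by
    refine ⟨r, Subtype.ext ?_⟩
    have h1 := (Cfsg.Agent.H12.Dk.quadOn_of_comm hq).pow_card_mem_centralizer (hHV haH)
    have h2 : a ^ Nat.card V ∈ H ⊓ centralizer (V : Set G) := mem_inf.mpr ⟨pow_mem haH _, h1⟩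
    rw [hf, hr] at h2
    exact h2
  have hnot : (⟨a, haH⟩ : H) ∉ pCore p H := fun h => hna ⟨_, h, rfl⟩
  obtain ⟨g, l, hl, hln⟩ := Cfsg.Agent.H12.Dk.baer_suzuki_elt p hpow hnot
  have hqy : ⁅⁅V, zpowers ((g : G) * a * (g : G)⁻¹)⁆, zpowers ((g : G) * a * (g : G)⁻¹)⁆ = ⊥ := by
    have hgV : V.map (MulAut.conj (g : G)).toMonoidHom = V := by
      have hg := hHV g.2
      ext z
      constructor
      · rintro ⟨v, hv, rfl⟩
        exact (mem_normalizer_iff.mp hg v).mp hv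
      · intro hz
        refine ⟨(g : G)⁻¹ * z * g, ?_, by simp [MulAut.conj_apply]; group⟩
        have := (mem_normalizer_iff.mp (inv_mem hg) z).mp hz
        rwa [inv_inv] at this
    have hz : (zpowers a).map (MulAut.conj (g : G)).toMonoidHom = zpowers ((g : G) * a * (g : G)⁻¹) := by
      rw [MonoidHom.map_zpowers]
      rfl
    have h1 := congrArg (Subgroup.map (MulAut.conj (g : G)).toMonoidHom) hq
    rw [map_commutator, map_commutator, hgV, hz, Subgroup.map_bot] at h1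
    exact h1
  refine exists_SL2_of_quad_pair hp V H hV hHV hf haH (mul_mem (mul_mem g.2 haH) (inv_mem g.2)) hq hqy
    ⟨(l : G), ?_, ?_⟩
  · have h1 : H.subtype l ∈ (closure {(⟨a, haH⟩ : H), g * ⟨a, haH⟩ * g⁻¹}).map H.subtype := mem_map_of_mem _ hl
    rw [MonoidHom.map_closure, Set.image_pair] at h1
    exact h1
  · intro n hn
    exact hln n (Subtype.ext hn)

theorem involves_of_le {H : Subgroup G} {X : Type*} [Group X] {K : Subgroup G} (f : K →* X) (hKH : K ≤ H)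
    (hf : Function.Surjective f) : Involves X H :=
  involves_iff.mpr ⟨K.subgroupOf H, f.comp (subgroupOfEquivOfLe hKH).toMonoidHom,
    hf.comp (subgroupOfEquivOfLe hKH).surjective⟩

end Cfsg.Agent.Lib.Helper13
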