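import Cfsg.Agent.Lib.Helper13.TwoConj2
import Cfsg.Agent.Lib.Helper13.QuadSL
import Cfsg.Agent.S0028
import Cfsg.Agent.S0444

set_option autoImplicit false
open Cfsg
open scoped commutatorElement

namespace Cfsg.Agent.Lib.Helper13.S3Sec

variable {G : Type*} [Group G]

theorem inv_lemma (y a : G) (ha : a * a = 1) :
    a * (y * a * y⁻¹ * a) * a⁻¹ = (y * a * y⁻¹ * a)⁻¹ := by
  have ha' : a⁻¹ = a := inv_eq_of_mul_eq_one_left ha
  simp only [mul_inv_rev, inv_inv, ha']
  simp only [mul_assoc, ha, mul_one]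

theorem step_aux (U₀ : Subgroup G) (e u : G) (r : ℕ) (hr : r.Prime) (hr5 : 5 ≤ r) (he : orderOf e = r)
    (he0 : ∀ t ∈ U₀, Commute e t) (hsq : ∀ t ∈ U₀, t * t = 1) (i j : ℕ) (hij : i < j) (hj : j < 5)
    (h : (e ^ i * u * (e ^ i)⁻¹)⁻¹ * (e ^ j * u * (e ^ j)⁻¹) ∈ U₀) : Commute e u := by
  obtain ⟨k, rfl⟩ : ∃ k, j = i + k := ⟨j - i, by omega⟩
  have hk0 : 0 < k := by omega
  have hk4 : k ≤ 4 := by omega
  obtain ⟨t, ht⟩ : ∃ t, t = (e ^ i * u * (e ^ i)⁻¹)⁻¹ * (e ^ (i + k) * u * (e ^ (i + k))⁻¹) := ⟨_, rfl⟩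
  rw [← ht] at h
  have hct : Commute e t := he0 t h
  have hcti : Commute (e ^ i) t := hct.pow_left i
  have h1 : t = e ^ i * (u⁻¹ * e ^ k * u * (e ^ k)⁻¹) * (e ^ i)⁻¹ := by
    rw [ht, pow_add]; group
  have h2 : u⁻¹ * e ^ k * u * (e ^ k)⁻¹ = t := by
    have : (e ^ i)⁻¹ * t * e ^ i = u⁻¹ * e ^ k * u * (e ^ k)⁻¹ := by rw [h1]; group
    rw [← this, mul_assoc, ← hcti.eq, ← mul_assoc, inv_mul_cancel, one_mul]
  have h3 : e ^ k * u * (e ^ k)⁻¹ = u * t := by rw [← h2]; group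
  have hctk : Commute (e ^ k) t := hct.pow_left k
  have h4 : e ^ k * t * (e ^ k)⁻¹ = t := by rw [hctk.eq, mul_assoc, mul_inv_cancel, mul_one]
  have h5 : e ^ k * (e ^ k * u * (e ^ k)⁻¹) * (e ^ k)⁻¹ = u := by
    rw [h3]
    have : e ^ k * (u * t) * (e ^ k)⁻¹ = (e ^ k * u * (e ^ k)⁻¹) * (e ^ k * t * (e ^ k)⁻¹) := by group
    rw [this, h3, h4, mul_assoc, hsq t h, mul_one]
  have h6 : Commute (e ^ (2 * k)) u := by
    have : e ^ (2 * k) * u * (e ^ (2 * k))⁻¹ = u := by
      have e1 : e ^ (2 * k) * u * (e ^ (2 * k))⁻¹ =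
          e ^ k * (e ^ k * u * (e ^ k)⁻¹) * (e ^ k)⁻¹ := by
        rw [two_mul, pow_add]; group
      rw [e1, h5]
    show e ^ (2 * k) * u = u * e ^ (2 * k)
    calc e ^ (2 * k) * u = (e ^ (2 * k) * u * (e ^ (2 * k))⁻¹) * e ^ (2 * k) := by group
      _ = u * e ^ (2 * k) := by rw [this]
  have hcop : (2 * k).Coprime (orderOf e) := by
    rw [he, Nat.coprime_comm, Nat.Prime.coprime_iff_not_dvd hr]
    intro hd
    rcases (Nat.Prime.dvd_mul hr).1 hd with h | h
    · have := Nat.le_of_dvd (by norm_num) h; omega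
    · have := Nat.le_of_dvd hk0 h; omega
  obtain ⟨m, hm⟩ := exists_pow_eq_self_of_coprime hcop
  rw [← hm]
  exact h6.pow_left m

theorem commute_of_small [Finite G] (U U₀ : Subgroup G) (e : G) (r : ℕ) (hr : r.Prime)
    (hr5 : 5 ≤ r) (he : orderOf e = r) (heU : e ∈ Subgroup.normalizer (U : Set G))
    (he0 : ∀ t ∈ U₀, Commute e t) (hsq : ∀ t ∈ U₀, t * t = 1) (hidx : U₀.relIndex U ≤ 4)
    (u : G) (hu : u ∈ U) : Commute e u := by
  classical
  have hmem : ∀ i : ℕ, e ^ i * u * (e ^ i)⁻¹ ∈ U := by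
    intro i
    exact (Subgroup.mem_normalizer_iff.1 (Subgroup.pow_mem _ heU i) u).1 hu
  let f : Fin 5 → ↥U ⧸ U₀.subgroupOf U := fun i => QuotientGroup.mk ⟨e ^ (i : ℕ) * u * (e ^ (i : ℕ))⁻¹, hmem i⟩
  have : Fintype (↥U ⧸ U₀.subgroupOf U) := Fintype.ofFinite _
  have hcard : Fintype.card (↥U ⧸ U₀.subgroupOf U) < Fintype.card (Fin 5) := by
    rw [Fintype.card_fin, ← Nat.card_eq_fintype_card, ← Subgroup.index_eq_card]
    have : (U₀.subgroupOf U).index = U₀.relIndex U := rfl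
    omega
  obtain ⟨i, j, hij, hf⟩ := Fintype.exists_ne_map_eq_of_card_lt f hcard
  have key : ∀ i j : Fin 5, f i = f j →
      (e ^ (i : ℕ) * u * (e ^ (i : ℕ))⁻¹)⁻¹ * (e ^ (j : ℕ) * u * (e ^ (j : ℕ))⁻¹) ∈ U₀ := by
    intro i j h
    have := QuotientGroup.eq.1 h
    exact this
  have hne : (i : ℕ) ≠ (j : ℕ) := fun h => hij (Fin.ext h)
  rcases Nat.lt_or_gt_of_ne hne with h | h
  · exact step_aux U₀ e u r hr hr5 he he0 hsq i j h j.2 (key i j hf)
  · exact step_aux U₀ e u r hr hr5 he he0 hsq j i h i.2 (key j i hf.symm)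

theorem involves_S3 {M : Subgroup G} (a e : G) (haM : a ∈ M) (heM : e ∈ M) (ha2 : a * a = 1)
    (he3 : orderOf e = 3) (hinv : a * e * a⁻¹ = e⁻¹) : Involves (Equiv.Perm (Fin 3)) ↥M := by
  have ha' : a⁻¹ = a := inv_eq_of_mul_eq_one_left ha2
  have he1 : e ≠ 1 := by
    intro h; rw [h, orderOf_one] at he3; omega
  have he3' : e ^ 3 = 1 := he3 ▸ pow_orderOf_eq_one e
  have ha1 : a ≠ 1 := by
    intro h
    rw [h] at hinv
    simp only [one_mul, inv_one, mul_one] at hinv
    apply he1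
    have h2 : e * e = 1 := by
      calc e * e = e * e⁻¹ := by rw [← hinv]
        _ = 1 := mul_inv_cancel e
    calc e = e ^ 3 * (e * e)⁻¹ := by group
      _ = 1 := by rw [he3', h2]; simp
  obtain ⟨b, hb⟩ : ∃ b, b = e * a * e⁻¹ := ⟨_, rfl⟩
  have hb2 : b * b = 1 := by
    rw [hb]
    calc e * a * e⁻¹ * (e * a * e⁻¹) = e * (a * a) * e⁻¹ := by group
      _ = 1 := by rw [ha2]; group
  have hb1 : b ≠ 1 := by
    intro h
    apply ha1
    rw [hb] at h
    calc a = e⁻¹ * (e * a * e⁻¹) * e := by group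
      _ = 1 := by rw [h]; group
  have hinv2 : a * e⁻¹ * a = e := by
    have h1 : a * e⁻¹ * a⁻¹ = e := by
      have h0 : (a * e * a⁻¹)⁻¹ = e := by rw [hinv, inv_inv]
      have h00 : (a * e * a⁻¹)⁻¹ = a * e⁻¹ * a⁻¹ := by group
      rw [← h00, h0]
    rw [ha'] at h1
    exact h1
  have hba : b * a = e * e := by
    rw [hb]
    calc e * a * e⁻¹ * a = e * (a * e⁻¹ * a) := by group
      _ = e * e := by rw [hinv2]
  have hb' : b⁻¹ = b := inv_eq_of_mul_eq_one_left hb2
  have hab : a * b = (e * e)⁻¹ := by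
    rw [← hba, mul_inv_rev, ha', hb']
  have : Fact (Nat.Prime 2) := ⟨Nat.prime_two⟩
  have hoa : orderOf a = 2 := orderOf_eq_prime (by rw [pow_two]; exact ha2) ha1
  have hob : orderOf b = 2 := orderOf_eq_prime (by rw [pow_two]; exact hb2) hb1
  have h6 : (e * e) ^ 3 = 1 := by
    calc (e * e) ^ 3 = (e ^ 3) ^ 2 := by rw [← pow_two, ← pow_mul, ← pow_mul]
      _ = 1 := by rw [he3']; simp
  have hE : Cfsg.IsThreeTranspositionSet ({a, b} : Set G) := by
    constructor
    · rintro d (rfl | rfl)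
      · exact hoa
      · exact hob
    · rintro d (rfl | rfl) c (rfl | rfl)
      · left; rw [ha2]; simp
      · right; rw [hab, inv_pow, h6, inv_one]
      · right; rw [hba, h6]
      · left; rw [hb2]; simp
  have hnc : ¬ Commute a b := by
    intro h
    apply he1
    have h1 : (e * e)⁻¹ = e * e := by rw [← hab, ← hba]; exact h
    have h2 : e ^ 4 = 1 := by
      calc e ^ 4 = (e * e) * (e * e) := by rw [← pow_two e, ← pow_add]
        _ = (e * e)⁻¹ * (e * e) := by rw [h1]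
        _ = 1 := inv_mul_cancel _
    calc e = e ^ 4 * (e ^ 3)⁻¹ := by group
      _ = 1 := by rw [h2, he3']; simp
  obtain ⟨φ⟩ := Cfsg.Agent.S0444.result hE (Set.mem_insert a _) (Set.mem_insert_of_mem a rfl) hnc
  refine Cfsg.Agent.Lib.Helper13.involves_of_le φ.toMonoidHom ?_ φ.surjective
  rw [Subgroup.closure_le]
  rintro d (rfl | rfl)
  · exact haM
  · rw [hb]; exact M.mul_mem (M.mul_mem heM haM) (M.inv_mem heM)

theorem card_mul_relIndex' {H K : Subgroup G} (h : H ≤ K) :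
    Nat.card H * H.relIndex K = Nat.card K := by
  have := Subgroup.relIndex_mul_relIndex ⊥ H K bot_le h
  rwa [Subgroup.relIndex_bot_left, Subgroup.relIndex_bot_left] at this

theorem main [Finite G] (M V F : Subgroup G) (hV : IsElementaryAbelian 2 V)
    (hMV : M ≤ Subgroup.normalizer (V : Set G)) (hfaith : M ⊓ Subgroup.centralizer (V : Set G) = ⊥)
    (hFM : F ≤ M) (hMF : M ≤ Subgroup.normalizer (F : Set G))
    (hFodd : ¬ 2 ∣ Nat.card F) (hcon : M ⊓ Subgroup.centralizer (F : Set G) ≤ F)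
    (hS3 : ¬ Involves (Equiv.Perm (Fin 3)) ↥M) :
    ∀ (n : ℕ) (A : Subgroup G), Nat.card A = n → A ≤ M → IsElementaryAbelian 2 A →
      Nat.card A ^ 2 ≤ (V ⊓ Subgroup.centralizer (A : Set G)).relIndex V := by
  have : Fact (Nat.Prime 2) := ⟨Nat.prime_two⟩
  intro n
  induction n using Nat.strong_induction_on with
  | _ n ih =>
  intro A hAn hAM hA
  by_cases hne : A = ⊥
  · subst hne
    have h1 : (V ⊓ Subgroup.centralizer (((⊥ : Subgroup G) : Subgroup G) : Set G)).relIndex V ≠ 0 :=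
      Subgroup.index_ne_zero_of_finite
    simp only [Subgroup.card_bot, one_pow]
    omega
  have hcommA : ∀ x ∈ A, ∀ z ∈ A, x * z = z * x := by
    intro x hx z hz
    exact congrArg Subtype.val (hA.1.is_comm.comm ⟨x, hx⟩ ⟨z, hz⟩)
  have hnc : ¬ F ≤ Subgroup.centralizer (A : Set G) := by
    intro h
    apply hne
    have h1 : A ≤ F := fun x hx => hcon ⟨hAM hx, (Subgroup.le_centralizer_iff.1 h) hx⟩
    rw [eq_bot_iff]
    intro x hx
    have h2 : orderOf x ∣ 2 := orderOf_dvd_of_pow_eq_one (hA.2 x hx)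
    have h3 : orderOf x ∣ Nat.card F := by
      have := orderOf_dvd_natCard (⟨x, h1 hx⟩ : F)
      rwa [Subgroup.orderOf_mk] at this
    rcases (Nat.dvd_prime Nat.prime_two).1 h2 with h | h
    · exact orderOf_eq_one_iff.1 h
    · exact absurd (h ▸ h3) hFodd
  obtain ⟨B, hBA, hBi, hBc⟩ := Cfsg.Agent.Lib.Helper13.TwoConj.exists_hyperplane 2 A F hA hne hFodd
    (hAM.trans hMF) hnc
  obtain ⟨y, ⟨hyF, hyB⟩, hyA⟩ := SetLike.not_le_iff_exists.1 hBc
  have hyB' : y ∈ Subgroup.centralizer (B : Set G) := hyB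
  obtain ⟨a, haA, hay⟩ : ∃ a ∈ A, a * y ≠ y * a := by
    by_contra hcon'
    push Not at hcon'
    exact hyA (Subgroup.mem_centralizer_iff.2 hcon')
  have ha2 : a * a = 1 := by
    have := hA.2 a haA
    rwa [pow_two] at this
  have ha' : a⁻¹ = a := inv_eq_of_mul_eq_one_left ha2
  have haB : a ∉ B := fun h => hay (Subgroup.mem_centralizer_iff.1 hyB' a h)
  obtain ⟨d, hd⟩ : ∃ d, d = y * a * y⁻¹ * a := ⟨_, rfl⟩
  have hd1 : d ≠ 1 := by
    intro h
    apply hay
    rw [hd] at h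
    have h1 : y * a * y⁻¹ = a := by
      have := eq_inv_of_mul_eq_one_left h
      rwa [ha'] at this
    calc a * y = (y * a * y⁻¹) * y := by rw [h1]
      _ = y * a := by group
  have hdF : d ∈ F := by
    rw [hd]
    have h1 : a * y⁻¹ * a⁻¹ ∈ F :=
      (Subgroup.mem_normalizer_iff.1 (hMF (hAM haA)) y⁻¹).1 (F.inv_mem hyF)
    have h2 : y * a * y⁻¹ * a = y * (a * y⁻¹ * a⁻¹) := by rw [ha']; group
    rw [h2]
    exact F.mul_mem hyF h1
  have haC : a ∈ Subgroup.centralizer (B : Set G) := by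
    rw [Subgroup.mem_centralizer_iff]
    intro b hb
    exact hcommA b (hBA hb) a haA
  have hdB : d ∈ Subgroup.centralizer (B : Set G) := by
    rw [hd]
    exact mul_mem (mul_mem (mul_mem hyB' haC) (inv_mem hyB')) haC
  have hdinv : a * d * a⁻¹ = d⁻¹ := by rw [hd]; exact inv_lemma y a ha2
  have hod : orderOf d ≠ 1 := fun h => hd1 (orderOf_eq_one_iff.1 h)
  obtain ⟨r, hr, hrd⟩ := Nat.exists_prime_and_dvd hod
  obtain ⟨e, he⟩ : ∃ e, e = d ^ (orderOf d / r) := ⟨_, rfl⟩
  have heo : orderOf e = r := by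
    rw [he]; exact orderOf_pow_orderOf_div (orderOf_pos d).ne' hrd
  have heF : e ∈ F := he ▸ F.pow_mem hdF _
  have heB : e ∈ Subgroup.centralizer (B : Set G) := he ▸ pow_mem hdB _
  have heinv : a * e * a⁻¹ = e⁻¹ := by rw [he, ← conj_pow, hdinv, inv_pow]
  have hr2 : r ≠ 2 := by
    rintro rfl
    apply hFodd
    have := orderOf_dvd_natCard (⟨e, heF⟩ : F)
    rw [Subgroup.orderOf_mk, heo] at this
    exact this
  have hr3 : r ≠ 3 := by
    rintro rfl
    exact hS3 (involves_S3 a e (hAM haA) (hFM heF) ha2 heo heinv)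
  have hr5 : 5 ≤ r := by
    have h2 := hr.two_le
    by_contra h
    push Not at h
    have h4 : r = 4 := by omega
    rw [h4] at hr
    exact absurd hr (by norm_num)
  have hBcard : Nat.card B * 2 = Nat.card A := by
    have := card_mul_relIndex' hBA
    rwa [hBi] at this
  have hBpos : 0 < Nat.card B := Nat.card_pos
  have hBE : IsElementaryAbelian 2 B :=
    ⟨⟨⟨fun x z => Subtype.ext (hcommA x (hBA x.2) z (hBA z.2))⟩⟩, fun b hb => hA.2 b (hBA hb)⟩
  have ihB := ih (Nat.card B) (by omega) B rfl (hBA.trans hAM) hBE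
  by_contra hlt
  push Not at hlt
  obtain ⟨U, hU⟩ : ∃ U, U = V ⊓ Subgroup.centralizer (B : Set G) := ⟨_, rfl⟩
  rw [← hU] at ihB
  have hUV : U ≤ V := hU ▸ inf_le_left
  have hVA : V ⊓ Subgroup.centralizer (A : Set G) = U ⊓ Subgroup.centralizer {a} := by
    apply le_antisymm
    · rintro v ⟨hvV, hvA⟩
      have hvA' : v ∈ Subgroup.centralizer (A : Set G) := hvA
      refine ⟨hU ▸ ⟨hvV, Subgroup.centralizer_le hBA hvA'⟩, ?_⟩
      show v ∈ Subgroup.centralizer {a}
      rw [Subgroup.mem_centralizer_singleton_iff]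
      exact (Subgroup.mem_centralizer_iff.1 hvA' a haA).symm
    · rintro v ⟨hvU, hva⟩
      have hva' : v ∈ Subgroup.centralizer {a} := hva
      rw [Subgroup.mem_centralizer_singleton_iff] at hva'
      have hvU' : v ∈ V ⊓ Subgroup.centralizer (B : Set G) := hU ▸ hvU
      have hvB : v ∈ Subgroup.centralizer (B : Set G) := hvU'.2
      refine ⟨hvU'.1, ?_⟩
      show v ∈ Subgroup.centralizer (A : Set G)
      rw [Subgroup.mem_centralizer_iff]
      intro x hx
      by_cases hxB : x ∈ B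
      · exact Subgroup.mem_centralizer_iff.1 hvB x hxB
      · have hidx : (B.subgroupOf A).index = 2 := hBi
        have h1 : (⟨x, hx⟩ : A) * ⟨a, haA⟩ ∈ B.subgroupOf A := by
          rw [Subgroup.mul_mem_iff_of_index_two hidx]
          constructor
          · intro h; exact absurd (Subgroup.mem_subgroupOf.1 h) hxB
          · intro h; exact absurd (Subgroup.mem_subgroupOf.1 h) haB
        have h2 : x * a ∈ B := Subgroup.mem_subgroupOf.1 h1
        have h3 := Subgroup.mem_centralizer_iff.1 hvB _ h2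
        -- x a v = v x a
        have h4 : x = (x * a) * a := by rw [mul_assoc, ha2, mul_one]
        calc x * v = (x * a) * a * v := by rw [← h4]
          _ = (x * a) * (v * a) := by rw [mul_assoc, ← hva']
          _ = ((x * a) * v) * a := (mul_assoc _ _ _).symm
          _ = (v * (x * a)) * a := by rw [h3]
          _ = v * ((x * a) * a) := mul_assoc _ _ _
          _ = v * x := by rw [← h4]
  rw [hVA] at hlt
  have hmul := Subgroup.relIndex_mul_relIndex (U ⊓ Subgroup.centralizer {a}) U V inf_le_left hUV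
  have hk : (U ⊓ Subgroup.centralizer {a}).relIndex U < 4 := by
    by_contra h
    push Not at h
    have h1 : 4 * U.relIndex V ≤ (U ⊓ Subgroup.centralizer {a}).relIndex U * U.relIndex V :=
      Nat.mul_le_mul_right _ h
    rw [hmul] at h1
    have h2 : Nat.card A ^ 2 = 4 * Nat.card B ^ 2 := by rw [← hBcard]; ring
    omega
  have hVp : IsPGroup 2 V := by
    rintro ⟨v, hv⟩
    exact ⟨1, Subtype.ext (by simpa using hV.2 v hv)⟩
  have hk2 : (U ⊓ Subgroup.centralizer {a}).relIndex U ≤ 2 := by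
    obtain ⟨j, hj⟩ := IsPGroup.iff_card.1 (hVp.to_le hUV)
    have hdv : (U ⊓ Subgroup.centralizer {a}).relIndex U ∣ 2 ^ j := hj ▸ Subgroup.relIndex_dvd_card _ U
    obtain ⟨i, -, hi⟩ := (Nat.dvd_prime_pow Nat.prime_two).1 hdv
    rw [hi] at hk ⊢
    have hi2 : i < 2 := by
      by_contra h
      push Not at h
      have := Nat.pow_le_pow_right (by norm_num : 0 < 2) h
      omega
    interval_cases i <;> norm_num
  have heM : e ∈ M := hFM heF
  have heU : e ∈ Subgroup.normalizer (U : Set G) := by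
    rw [Subgroup.mem_normalizer_iff]
    intro h
    rw [hU, Subgroup.mem_inf, Subgroup.mem_inf]
    exact and_congr (Subgroup.mem_normalizer_iff.1 (hMV heM) h)
      (Subgroup.mem_normalizer_iff.1 (Subgroup.le_normalizer heB) h)
  have e2 : U.map (MulAut.conj e).toMonoidHom = U := Cfsg.Agent.Lib.Helper16.cj_eq_self_iff.2 heU
  have e1 : (U ⊓ Subgroup.centralizer {a}).map (MulAut.conj e).toMonoidHom =
      U ⊓ Subgroup.centralizer {e * a * e⁻¹} := by
    ext x
    constructor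
    · rintro ⟨u, ⟨huU, hua⟩, rfl⟩
      have hua' : u ∈ Subgroup.centralizer {a} := hua
      rw [Subgroup.mem_centralizer_singleton_iff] at hua'
      refine ⟨(Subgroup.mem_normalizer_iff.1 heU u).1 huU, ?_⟩
      show _ ∈ Subgroup.centralizer {e * a * e⁻¹}
      rw [Subgroup.mem_centralizer_singleton_iff]
      simp only [MulEquiv.coe_toMonoidHom, MulAut.conj_apply]
      calc e * u * e⁻¹ * (e * a * e⁻¹) = e * (u * a) * e⁻¹ := by group
        _ = e * (a * u) * e⁻¹ := by rw [hua']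
        _ = e * a * e⁻¹ * (e * u * e⁻¹) := by group
    · rintro ⟨hxU, hxa⟩
      have hxa' : x ∈ Subgroup.centralizer {e * a * e⁻¹} := hxa
      rw [Subgroup.mem_centralizer_singleton_iff] at hxa'
      refine ⟨e⁻¹ * x * e, ⟨?_, ?_⟩, ?_⟩
      · apply (Subgroup.mem_normalizer_iff.1 heU _).2
        have : e * (e⁻¹ * x * e) * e⁻¹ = x := by group
        rw [this]; exact hxU
      · show _ ∈ Subgroup.centralizer {a}
        rw [Subgroup.mem_centralizer_singleton_iff]
        calc e⁻¹ * x * e * a = e⁻¹ * (x * (e * a * e⁻¹)) * e := by group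
          _ = e⁻¹ * ((e * a * e⁻¹) * x) * e := by rw [hxa']
          _ = a * (e⁻¹ * x * e) := by group
      · simp only [MulEquiv.coe_toMonoidHom, MulAut.conj_apply]; group
  have hk2' : (U ⊓ Subgroup.centralizer {e * a * e⁻¹}).relIndex U ≤ 2 := by
    have := Subgroup.relIndex_map_map_of_injective (f := (MulAut.conj e).toMonoidHom)
      (U ⊓ Subgroup.centralizer {a}) U (MulAut.conj e).injective
    rw [e1, e2] at this
    rw [this]; exact hk2
  obtain ⟨U₀, hU₀⟩ : ∃ U₀, U₀ = (U ⊓ Subgroup.centralizer {a}) ⊓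
      (U ⊓ Subgroup.centralizer {e * a * e⁻¹}) := ⟨_, rfl⟩
  have hidx : U₀.relIndex U ≤ 4 := by
    rw [hU₀]
    calc _ ≤ (U ⊓ Subgroup.centralizer {a}).relIndex U *
        (U ⊓ Subgroup.centralizer {e * a * e⁻¹}).relIndex U := Subgroup.relIndex_inf_le
      _ ≤ 2 * 2 := Nat.mul_le_mul hk2 hk2'
  have hinv2 : a * e⁻¹ * a = e := by
    have h0 : (a * e * a⁻¹)⁻¹ = e := by rw [heinv, inv_inv]
    have h00 : (a * e * a⁻¹)⁻¹ = a * e⁻¹ * a⁻¹ := by group
    rw [h00, ha'] at h0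
    exact h0
  have hee : e * a * e⁻¹ * a = e ^ 2 := by
    calc e * a * e⁻¹ * a = e * (a * e⁻¹ * a) := by group
      _ = e ^ 2 := by rw [hinv2, pow_two]
  have hcop2 : (2 : ℕ).Coprime (orderOf e) := by
    rw [heo]; exact (Nat.coprime_primes Nat.prime_two hr).2 (Ne.symm hr2)
  have he0 : ∀ t ∈ U₀, Commute e t := by
    intro t ht
    rw [hU₀] at ht
    obtain ⟨⟨-, h1⟩, ⟨-, h2⟩⟩ := ht
    have h1' : t ∈ Subgroup.centralizer {a} := h1
    have h2' : t ∈ Subgroup.centralizer {e * a * e⁻¹} := h2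
    rw [Subgroup.mem_centralizer_singleton_iff] at h1' h2'
    have h3 : Commute (e ^ 2) t := by
      rw [← hee]
      exact (Commute.mul_left (Commute.symm h2') (Commute.symm h1'))
    obtain ⟨m, hm⟩ := exists_pow_eq_self_of_coprime hcop2
    rw [← hm]
    exact h3.pow_left m
  have hsq : ∀ t ∈ U₀, t * t = 1 := by
    intro t ht
    rw [hU₀] at ht
    have := hV.2 t (hUV ht.1.1)
    rwa [pow_two] at this
  have hcU : ∀ u ∈ U, Commute e u := commute_of_small U U₀ e r hr hr5 heo heU he0 hsq hidx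
  have hBp : IsPGroup 2 B := by
    rintro ⟨b, hb⟩
    exact ⟨1, Subtype.ext (by simpa using hBE.2 b hb)⟩
  have hfin := Cfsg.Agent.S0028.result 2 B (Subgroup.zpowers e) V hBp
    (by rw [Nat.card_zpowers, heo]; exact (Nat.coprime_primes hr Nat.prime_two).2 hr2) hVp
    (Subgroup.le_centralizer_iff.1 (Subgroup.zpowers_le.2 heB))
    ((hBA.trans hAM).trans hMV) (Subgroup.zpowers_le.2 (hMV heM))
    (by
      rw [← hU]
      apply Subgroup.le_centralizer_iff.1
      rw [Subgroup.zpowers_le, Subgroup.mem_centralizer_iff]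
      intro u hu
      exact (hcU u hu).symm)
  have he1 : e ∈ M ⊓ Subgroup.centralizer (V : Set G) := ⟨heM, hfin (Subgroup.mem_zpowers e)⟩
  rw [hfaith, Subgroup.mem_bot] at he1
  rw [he1, orderOf_one] at heo
  omega

end Cfsg.Agent.Lib.Helper13.S3Sec
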