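import Cfsg.Agent.Lib.Helper13.OddQuad
import Cfsg.Agent.Lib.Helper13.Amb4
import Cfsg.Agent.Lib.Helper13.Glaub2

set_option autoImplicit false
open Cfsg

/-! `SL₂(p)`, `p` odd, has a non-abelian `2`-subgroup; groups with abelian Sylow `2`-subgroups do not involve it. -/

universe u

namespace Cfsg.Agent.Lib.Helper13

open Subgroup Matrix
open scoped commutatorElement

section
open Cfsg.Agent.H12.Dk

variable {F : Type*} [Field F]

/-- the element `i` of the quaternion group -/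
def qi : SpecialLinearGroup (Fin 2) F := ⟨!![0, 1; -1, 0], by simp [det_fin_two]⟩

/-- the element `j` of the quaternion group -/
def qj (a b : F) (h : a ^ 2 + b ^ 2 = -1) : SpecialLinearGroup (Fin 2) F :=
  ⟨!![a, b; b, -a], by rw [det_fin_two_of]; linear_combination -h⟩

@[simp] lemma e00_qi : e00 (qi : SpecialLinearGroup (Fin 2) F) = 0 := by simp [e00, qi]
@[simp] lemma e01_qi : e01 (qi : SpecialLinearGroup (Fin 2) F) = 1 := by simp [e01, qi]
@[simp] lemma e10_qi : e10 (qi : SpecialLinearGroup (Fin 2) F) = -1 := by simp [e10, qi]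
@[simp] lemma e11_qi : e11 (qi : SpecialLinearGroup (Fin 2) F) = 0 := by simp [e11, qi]
@[simp] lemma e00_qj (a b : F) (h : a ^ 2 + b ^ 2 = -1) : e00 (qj a b h) = a := by simp [e00, qj]
@[simp] lemma e01_qj (a b : F) (h : a ^ 2 + b ^ 2 = -1) : e01 (qj a b h) = b := by simp [e01, qj]
@[simp] lemma e10_qj (a b : F) (h : a ^ 2 + b ^ 2 = -1) : e10 (qj a b h) = b := by simp [e10, qj]
@[simp] lemma e11_qj (a b : F) (h : a ^ 2 + b ^ 2 = -1) : e11 (qj a b h) = -a := by simp [e11, qj]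

lemma qi_pow_four : (qi : SpecialLinearGroup (Fin 2) F) ^ 4 = 1 := by
  rw [show (4 : ℕ) = 2 + 2 from rfl, pow_add, sq]
  apply sl_ext <;> simp

lemma qj_pow_four (a b : F) (h : a ^ 2 + b ^ 2 = -1) : (qj a b h) ^ 4 = 1 := by
  rw [show (4 : ℕ) = 2 + 2 from rfl, pow_add, sq]
  apply sl_ext <;> simp
  · linear_combination (a ^ 2 + b ^ 2 - 1) * h
  · ring
  · ring
  · linear_combination (a ^ 2 + b ^ 2 - 1) * h

lemma qj_conj (a b : F) (h : a ^ 2 + b ^ 2 = -1) : qj a b h * qi * (qj a b h)⁻¹ = qi ^ 3 := by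
  rw [mul_inv_eq_iff_eq_mul, show (3 : ℕ) = 2 + 1 from rfl, pow_add, sq, pow_one]
  apply sl_ext <;> simp

lemma qi_qj_ne (h2 : (2 : F) ≠ 0) (a b : F) (h : a ^ 2 + b ^ 2 = -1) : qi * qj a b h ≠ qj a b h * qi := by
  intro hc
  have h00 := congrArg e00 hc
  have h01 := congrArg e01 hc
  simp at h00 h01
  have hb : b = 0 := by
    have : 2 * b = 0 := by linear_combination h00
    exact (mul_eq_zero.mp this).resolve_left h2
  have ha : a = 0 := by
    have : 2 * a = 0 := by linear_combination -h01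
    exact (mul_eq_zero.mp this).resolve_left h2
  rw [ha, hb] at h
  have : (1 : F) = 0 := by linear_combination h
  exact one_ne_zero this

end

theorem exists_nonabelian_two_subgroup_SL2 (p : ℕ) [Fact p.Prime] (hp : p ≠ 2) :
    ∃ Q : Subgroup (SpecialLinearGroup (Fin 2) (ZMod p)), IsPGroup 2 Q ∧ ∃ x ∈ Q, ∃ y ∈ Q, x * y ≠ y * x := by
  obtain ⟨a, b, hab⟩ := ZMod.sq_add_sq p (-1)
  have h2 : (2 : ZMod p) ≠ 0 := by
    intro h2
    have h3 : ((2 : ℕ) : ZMod p) = 0 := by exact_mod_cast h2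
    rw [ZMod.natCast_eq_zero_iff] at h3
    exact hp ((Nat.prime_dvd_prime_iff_eq Fact.out Nat.prime_two).mp h3)
  set i : SpecialLinearGroup (Fin 2) (ZMod p) := qi with hi
  set j : SpecialLinearGroup (Fin 2) (ZMod p) := qj a b hab with hj
  have hi4 : i ^ 4 = 1 := qi_pow_four
  have hj4 : j ^ 4 = 1 := qj_pow_four a b hab
  have hji : j * i * j⁻¹ = i ^ 3 := qj_conj a b hab
  have hz : ∀ g : SpecialLinearGroup (Fin 2) (ZMod p), g ^ 4 = 1 → IsPGroup 2 (zpowers g) := by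
    intro g hg x
    obtain ⟨k, hk⟩ := x.2
    refine ⟨2, Subtype.ext ?_⟩
    change (x : SpecialLinearGroup (Fin 2) (ZMod p)) ^ 2 ^ 2 = 1
    rw [← hk, show (2 : ℕ) ^ 2 = 4 from rfl]
    change (g ^ k) ^ 4 = 1
    rw [← zpow_natCast, ← _root_.zpow_mul, mul_comm, _root_.zpow_mul, zpow_natCast, hg, _root_.one_zpow]
  have hn : zpowers j ≤ normalizer (zpowers i : Set _) := by
    rw [zpowers_le]
    apply mem_normalizer_of_conj_mem
    rintro _ ⟨k, rfl⟩
    refine ⟨3 * k, ?_⟩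
    change i ^ (3 * k) = j * i ^ k * j⁻¹
    rw [← conj_zpow, hji, _root_.zpow_mul]
    norm_cast
  exact ⟨zpowers j ⊔ zpowers i, IsPGroup.to_sup_of_normal_right' (hz j hj4) (hz i hi4) hn,
    i, le_sup_right (a := zpowers j) (mem_zpowers i), j, le_sup_left (b := zpowers i) (mem_zpowers j),
    qi_qj_ne h2 a b hab⟩

/-- every `2`-subgroup is abelian -/
def AbTwo (G : Type*) [Group G] : Prop := ∀ Q : Subgroup G, IsPGroup 2 Q → ∀ x ∈ Q, ∀ y ∈ Q, x * y = y * x

theorem abTwo_of_sylow {G : Type*} [Group G] [Finite G] (T : Sylow 2 G) (hT : IsMulCommutative T) : AbTwo G := by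
  intro Q hQ x hx y hy
  obtain ⟨T', hT'⟩ := hQ.exists_le_sylow
  obtain ⟨g, rfl⟩ := MulAction.exists_smul_eq G T T'
  have h1 : ∀ z ∈ Q, g⁻¹ * z * g ∈ T := by
    intro z hz
    have := hT' hz
    rw [Sylow.coe_subgroup_smul, Subgroup.mem_pointwise_smul_iff_inv_smul_mem] at this
    have h5 : g⁻¹ * z * g ∈ (T : Subgroup G) := by simpa [MulAut.smul_def, MulAut.conj_apply] using this
    exact h5
  have h2 := congrArg Subtype.val (hT.is_comm.comm ⟨_, h1 x hx⟩ ⟨_, h1 y hy⟩)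
  have h3 : g⁻¹ * x * g * (g⁻¹ * y * g) = g⁻¹ * y * g * (g⁻¹ * x * g) := h2
  have h4 : g⁻¹ * (x * y) * g = g⁻¹ * (y * x) * g := by
    calc g⁻¹ * (x * y) * g = g⁻¹ * x * g * (g⁻¹ * y * g) := by group
      _ = g⁻¹ * y * g * (g⁻¹ * x * g) := h3
      _ = g⁻¹ * (y * x) * g := by group
  exact mul_left_cancel (mul_right_cancel h4)

theorem AbTwo.of_involves {G : Type*} [Group G] [Finite G] {H : Type*} [Group H] (h : AbTwo G) (hi : Involves H G) :
    AbTwo H := by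
  obtain ⟨K, f, hf⟩ := involves_iff.mp hi
  intro Q hQ
  obtain ⟨T, hT, rfl⟩ := exists_pSubgroup_map_eq (p := 2) f (D := Q)
    (by rw [MonoidHom.range_eq_top.mpr hf]; exact le_top) hQ
  rintro _ ⟨x, hx, rfl⟩ _ ⟨y, hy, rfl⟩
  have h1 := h (T.map K.subtype) (hT.map _) x ⟨x, hx, rfl⟩ y ⟨y, hy, rfl⟩
  have h2 : x * y = y * x := Subtype.ext h1
  rw [← map_mul, ← map_mul, h2]

theorem AbTwo.not_involves_SL2 {G : Type*} [Group G] [Finite G] (h : AbTwo G) (p : ℕ) [Fact p.Prime] (hp : p ≠ 2) :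
    ¬ Involves (SpecialLinearGroup (Fin 2) (ZMod p)) G := by
  intro hi
  obtain ⟨Q, hQ, x, hx, y, hy, hxy⟩ := exists_nonabelian_two_subgroup_SL2 p hp
  exact hxy (h.of_involves hi Q hQ x hx y hy)

end Cfsg.Agent.Lib.Helper13
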