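import Cfsg.Agent.S0590
import Cfsg.Agent.H12.Alperin
import Cfsg.Agent.H9.Cores

set_option autoImplicit false
open Cfsg

/-! Relative subnormality and subgroups acting irreducibly on their commutator module. -/

namespace Cfsg.Agent.Lib.Helper13

open Subgroup Cfsg.Agent.H12
open scoped commutatorElement

variable {G : Type*} [Group G]

/-- `A` is a subnormal subgroup of `H`. -/
def SN (A H : Subgroup G) : Prop := A ≤ H ∧ (A.subgroupOf H).IsSubnormal

theorem SN.mono {A H K : Subgroup G} (h : SN A H) (hAK : A ≤ K) (hKH : K ≤ H) : SN A K := by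
  refine ⟨hAK, ?_⟩
  have h1 := h.2.comap (Subgroup.inclusion hKH)
  have h2 : (A.subgroupOf H).comap (Subgroup.inclusion hKH) = A.subgroupOf K := by
    ext x
    simp [mem_subgroupOf]
  rwa [h2] at h1

theorem SN.conj {A H : Subgroup G} (h : SN A H) {g : G} (hg : g ∈ H) : SN (cj A g) H := by
  have hle : cj A g ≤ H := by
    intro x hx
    rw [mem_cj] at hx
    have h1 := h.1 hx
    have h2 : x = g⁻¹ * (g * x * g⁻¹) * g := by group
    rw [h2]
    exact H.mul_mem (H.mul_mem (H.inv_mem hg) h1) hg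
  refine ⟨hle, ?_⟩
  have h1 := h.2.map (f := (MulAut.conj (⟨g, hg⟩ : H)⁻¹).toMonoidHom) (MulAut.conj (⟨g, hg⟩ : H)⁻¹).surjective
  have h2 : (A.subgroupOf H).map (MulAut.conj (⟨g, hg⟩ : H)⁻¹).toMonoidHom = (cj A g).subgroupOf H := by
    ext x
    rw [mem_subgroupOf, mem_cj]
    constructor
    · rintro ⟨y, hy, rfl⟩
      have : g * ((((MulAut.conj (⟨g, hg⟩ : H)⁻¹).toMonoidHom y : H)) : G) * g⁻¹ = y := by
        simp [mul_assoc]
      rw [this]
      exact hy
    · intro hx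
      refine ⟨⟨g, hg⟩ * x * ⟨g, hg⟩⁻¹, hx, ?_⟩
      apply Subtype.ext
      simp [mul_assoc]
  rwa [h2] at h1

theorem SN.exists_normal {A H : Subgroup G} (h : SN A H) (hne : A ≠ H) :
    ∃ N : Subgroup G, A ≤ N ∧ N < H ∧ H ≤ normalizer (N : Set G) := by
  have h1 : A.subgroupOf H ≠ ⊤ := by
    intro h2
    rw [subgroupOf_eq_top] at h2
    exact hne (le_antisymm h.1 h2)
  obtain ⟨K, hKn, hAK, hK⟩ := h.2.exists_normal_and_le_and_lt_top_of_ne h1
  refine ⟨K.map H.subtype, ?_, ?_, ?_⟩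
  · intro a ha
    exact ⟨⟨a, h.1 ha⟩, hAK ha, rfl⟩
  · refine lt_of_le_of_ne (map_subtype_le K) ?_
    intro h2
    apply hK.ne
    rw [eq_top_iff]
    intro x _
    have h3 : (x : G) ∈ K.map H.subtype := by rw [h2]; exact x.2
    obtain ⟨y, hy, hyx⟩ := h3
    have : y = x := Subtype.ext hyx
    rwa [← this]
  · intro g hg
    rw [mem_normalizer_iff]
    intro x
    constructor
    · rintro ⟨y, hy, rfl⟩
      exact ⟨⟨g, hg⟩ * y * ⟨g, hg⟩⁻¹, hKn.conj_mem y hy _, rfl⟩
    · rintro ⟨y, hy, hyx⟩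
      refine ⟨⟨g, hg⟩⁻¹ * y * ⟨g, hg⟩, ?_, ?_⟩
      · have := hKn.conj_mem y hy ⟨g, hg⟩⁻¹
        simpa using this
      · change g⁻¹ * (y : G) * g = x
        have h4 : (y : G) = g * x * g⁻¹ := hyx
        rw [h4]
        group

theorem cj_commutator (A B : Subgroup G) (g : G) : cj ⁅A, B⁆ g = ⁅cj A g, cj B g⁆ :=
  Subgroup.map_commutator A B _

theorem cj_sup (A B : Subgroup G) (g : G) : cj (A ⊔ B) g = cj A g ⊔ cj B g :=
  Subgroup.map_sup A B _

theorem cj_bot (g : G) : cj (⊥ : Subgroup G) g = ⊥ := Subgroup.map_bot _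

theorem cj_eq_bot_iff {A : Subgroup G} {g : G} : cj A g = ⊥ ↔ A = ⊥ :=
  Subgroup.map_eq_bot_iff_of_injective _ (MulAut.conj g⁻¹).injective

theorem cj_injective (g : G) {A B : Subgroup G} (h : cj A g = cj B g) : A = B :=
  Subgroup.map_injective (MulAut.conj g⁻¹).injective h

end Cfsg.Agent.Lib.Helper13
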