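import Cfsg.Agent.Lib.Helper13.SubPair1

set_option autoImplicit false
open Cfsg

/-! Subgroups acting irreducibly on their commutator module: basic facts. -/

namespace Cfsg.Agent.Lib.Helper13

open Subgroup Cfsg.Agent.H12
open scoped commutatorElement

variable {G : Type*} [Group G]

structure IrrSub (p : ℕ) (V E : Subgroup G) : Prop where
  norm : E ≤ normalizer (V : Set G)
  irr : ∀ U : Subgroup G, U ≤ ⁅V, E⁆ → E ≤ normalizer (U : Set G) → U = ⊥ ∨ U = ⁅V, E⁆
  core : ∀ R : Subgroup G, R ≤ E → IsPGroup p R → E ≤ normalizer (R : Set G) → R = ⊥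
  card : 2 < Nat.card E
  faith : E ⊓ centralizer (V : Set G) = ⊥

theorem comm_cj_of_mem {V : Subgroup G} (E : Subgroup G) {g : G} (hg : g ∈ normalizer (V : Set G)) :
    ⁅V, cj E g⁆ = cj ⁅V, E⁆ g := by
  rw [cj_commutator, cj_eq_self hg]

theorem IrrSub.conj {p : ℕ} {V E : Subgroup G} (h : IrrSub p V E) {g : G} (hg : g ∈ normalizer (V : Set G)) :
    IrrSub p V (cj E g) where
  norm := by
    have := cj_mono h.norm g
    rwa [← normalizer_cj, cj_eq_self hg] at this
  irr := by
    intro U hU hn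
    rw [comm_cj_of_mem E hg] at hU ⊢
    have h1 : cj U g⁻¹ ≤ ⁅V, E⁆ := by rw [cj_le_iff, inv_inv]; exact hU
    have h2 : E ≤ normalizer ((cj U g⁻¹ : Subgroup G) : Set G) := by
      rw [normalizer_cj, ← cj_le_iff]; exact hn
    rcases h.irr _ h1 h2 with h3 | h3
    · left; exact cj_eq_bot_iff.mp h3
    · right
      rw [← h3, cj_inv_cj]
  core := by
    intro R hR hp hn
    have h1 : cj R g⁻¹ ≤ E := by rw [cj_le_iff, inv_inv]; exact hR
    have h2 : E ≤ normalizer ((cj R g⁻¹ : Subgroup G) : Set G) := by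
      rw [normalizer_cj, ← cj_le_iff]; exact hn
    exact cj_eq_bot_iff.mp (h.core _ h1 (isPGroup_cj hp _) h2)
  card := by rw [card_cj]; exact h.card
  faith := by
    have h1 : centralizer (V : Set G) = cj (centralizer (V : Set G)) g := by
      rw [← centralizer_cj, cj_eq_self hg]
    rw [h1, ← cj_inf, h.faith, cj_bot]

variable [Finite G] {p : ℕ} [Fact p.Prime] {V : Subgroup G}

theorem isPGroup_of_quad (hV : IsElementaryAbelian p V) {R : Subgroup G} (hn : R ≤ normalizer (V : Set G))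
    (hf : R ⊓ centralizer (V : Set G) = ⊥) (hq : ⁅⁅V, R⁆, R⁆ = ⊥) : IsPGroup p R := by
  have hpow := (Cfsg.Agent.S0590.result V R hV hn hq).2
  intro d
  refine ⟨1, ?_⟩
  rw [pow_one]
  apply Subtype.ext
  have h1 : (d : G) ^ p ∈ R ⊓ centralizer (V : Set G) := ⟨R.pow_mem d.2 p, hpow _ d.2⟩
  rw [hf, mem_bot] at h1
  simpa using h1

theorem IrrSub.comm_le {E : Subgroup G} (h : IrrSub p V E) : ⁅V, E⁆ ≤ V :=
  le_normalizer_iff_commutator_le_left.mp h.norm

theorem IrrSub.le_normalizer_comm {E : Subgroup G} (_h : IrrSub p V E) :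
    E ≤ normalizer ((⁅V, E⁆ : Subgroup G) : Set G) := normalizer_commutator_ge_right V E

theorem IrrSub.not_quad (hV : IsElementaryAbelian p V) {E : Subgroup G} (h : IrrSub p V E) :
    ⁅⁅V, E⁆, E⁆ ≠ ⊥ := by
  intro hq
  have h1 := h.core E le_rfl (isPGroup_of_quad hV h.norm h.faith hq) le_normalizer
  have h2 := h.card
  rw [h1, card_bot] at h2
  omega

theorem IrrSub.comm_comm (hV : IsElementaryAbelian p V) {E : Subgroup G} (h : IrrSub p V E) :
    ⁅⁅V, E⁆, E⁆ = ⁅V, E⁆ := by
  rcases h.irr ⁅⁅V, E⁆, E⁆ (le_normalizer_iff_commutator_le_left.mp h.le_normalizer_comm)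
    (normalizer_commutator_ge_right _ E) with h1 | h1
  · exact absurd h1 (h.not_quad hV)
  · exact h1

theorem IrrSub.comm_ne_bot (hV : IsElementaryAbelian p V) {E : Subgroup G} (h : IrrSub p V E) :
    ⁅V, E⁆ ≠ ⊥ := by
  intro h1
  apply h.not_quad hV
  rw [h1, commutator_bot_left]

theorem IrrSub.inf_centralizer (hV : IsElementaryAbelian p V) {E : Subgroup G} (h : IrrSub p V E) :
    ⁅V, E⁆ ⊓ centralizer (E : Set G) = ⊥ := by
  have h1 : E ≤ normalizer ((⁅V, E⁆ ⊓ centralizer (E : Set G) : Subgroup G) : Set G) := by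
    refine le_trans ?_ (centralizer_le_normalizer _)
    rw [le_centralizer_iff]
    exact inf_le_right
  rcases h.irr _ inf_le_left h1 with h2 | h2
  · exact h2
  · exfalso
    apply h.not_quad hV
    rw [commutator_eq_bot_iff_le_centralizer]
    exact inf_eq_left.mp h2

end Cfsg.Agent.Lib.Helper13
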