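import Cfsg.Agent.Lib.Helper13.SubPair2

set_option autoImplicit false
open Cfsg

/-! Two subgroups irreducible on their commutator modules: the local analysis. -/

namespace Cfsg.Agent.Lib.Helper13

open Subgroup Cfsg.Agent.H12
open scoped commutatorElement

variable {G : Type*} [Group G]

/-- the conjugates of `[V,E]` under `H` are equal or "commute". -/
def TIc (V E H : Subgroup G) : Prop :=
  ∀ a ∈ H, ∀ b ∈ H, cj ⁅V, E⁆ a = cj ⁅V, E⁆ b ∨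
    (⁅cj ⁅V, E⁆ a, cj E b⁆ = ⊥ ∧ ⁅cj ⁅V, E⁆ b, cj E a⁆ = ⊥)

theorem le_normalizer_inf' {A B E : Subgroup G} (hA : E ≤ normalizer (A : Set G))
    (hB : E ≤ normalizer (B : Set G)) : E ≤ normalizer ((A ⊓ B : Subgroup G) : Set G) := by
  intro e he
  rw [mem_normalizer_iff]
  intro x
  rw [mem_inf, mem_inf, ← mem_normalizer_iff.mp (hA he) x, ← mem_normalizer_iff.mp (hB he) x]

theorem comm_elt_eq {w x : G} : ⁅w, x⁻¹⁆ = w * (x⁻¹ * w⁻¹ * x) := by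
  rw [commutatorElement_def]; group

variable [Finite G] {p : ℕ} [Fact p.Prime] {V : Subgroup G}

/-- data attached to an element `x` moving `W₁ = [V,E₁]`. -/
theorem cj_le_centralizer_of_move {E₁ H : Subgroup G} (hTI : TIc V E₁ H) {x : G} (hx : x ∈ H)
    (hmove : cj ⁅V, E₁⁆ x ≠ ⁅V, E₁⁆) : cj ⁅V, E₁⁆ x ≤ centralizer (E₁ : Set G) := by
  rcases hTI x hx 1 H.one_mem with h | h
  · rw [cj_one] at h; exact absurd h hmove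
  · have := h.1
    rw [cj_one, commutator_eq_bot_iff_le_centralizer] at this
    exact this

theorem inf_cj_eq_bot (hV : IsElementaryAbelian p V) {E₁ H : Subgroup G} (h₁ : IrrSub p V E₁)
    (hTI : TIc V E₁ H) {x : G} (hx : x ∈ H) (hmove : cj ⁅V, E₁⁆ x ≠ ⁅V, E₁⁆) :
    ⁅V, E₁⁆ ⊓ cj ⁅V, E₁⁆ x = ⊥ := by
  rw [eq_bot_iff, ← h₁.inf_centralizer hV]
  exact inf_le_inf_left _ (cj_le_centralizer_of_move hTI hx hmove)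

theorem move_le (hV : IsElementaryAbelian p V) {E₁ E₂ H : Subgroup G} (h₁ : IrrSub p V E₁)
    (hTI : TIc V E₁ H) (hE₂ : E₂ ≤ H) {x : G} (hx : x ∈ E₂) (hmove : cj ⁅V, E₁⁆ x ≠ ⁅V, E₁⁆) :
    ⁅V, E₁⁆ ≤ ⁅⁅V, E₂⁆, E₁⁆ := by
  have hc := cj_le_centralizer_of_move hTI (hE₂ hx) hmove
  conv_lhs => rw [← h₁.comm_comm hV]
  rw [commutator_le]
  intro w hw e he
  have hd : ⁅w, x⁻¹⁆ ∈ ⁅V, E₂⁆ := commutator_mem_commutator (h₁.comm_le hw) (E₂.inv_mem hx)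
  have hu : x⁻¹ * w⁻¹ * x ∈ cj ⁅V, E₁⁆ x := conj_mem_cj (inv_mem hw)
  have hue := (mem_centralizer_iff.mp (hc hu)) e he
  have h2 : ⁅w, e⁆ = ⁅⁅w, x⁻¹⁆, e⁆ := by
    rw [comm_elt_eq, commutatorElement_def, commutatorElement_def]
    have h3 : w * (x⁻¹ * w⁻¹ * x) * e * (w * (x⁻¹ * w⁻¹ * x))⁻¹ * e⁻¹
        = w * ((x⁻¹ * w⁻¹ * x) * e) * (x⁻¹ * w⁻¹ * x)⁻¹ * w⁻¹ * e⁻¹ := by group
    rw [h3, ← hue]
    group
  rw [h2]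
  exact commutator_mem_commutator hd he

theorem comm_inj (hV : IsElementaryAbelian p V) {E₁ H : Subgroup G} (h₁ : IrrSub p V E₁)
    (hTI : TIc V E₁ H) {x : G} (hx : x ∈ H) (hmove : cj ⁅V, E₁⁆ x ≠ ⁅V, E₁⁆)
    {w w' : G} (hw : w ∈ ⁅V, E₁⁆) (hw' : w' ∈ ⁅V, E₁⁆) (h : ⁅w, x⁻¹⁆ = ⁅w', x⁻¹⁆) : w = w' := by
  rw [comm_elt_eq, comm_elt_eq] at h
  have h1 : w'⁻¹ * w = x⁻¹ * (w'⁻¹ * w) * x := by
    have : w'⁻¹ * w = (x⁻¹ * w'⁻¹ * x) * (x⁻¹ * w⁻¹ * x)⁻¹ := by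
      rw [eq_mul_inv_iff_mul_eq, mul_assoc, h]; group
    conv_lhs => rw [this]
    group
  have h2 : w'⁻¹ * w ∈ ⁅V, E₁⁆ ⊓ cj ⁅V, E₁⁆ x := by
    refine mem_inf.mpr ⟨mul_mem (inv_mem hw') hw, ?_⟩
    rw [h1]
    exact conj_mem_cj (mul_mem (inv_mem hw') hw)
  rw [inf_cj_eq_bot hV h₁ hTI hx hmove, mem_bot] at h2
  exact (inv_mul_eq_one.mp h2).symm

theorem card_le_of_move (hV : IsElementaryAbelian p V) {E₁ E₂ H : Subgroup G} (h₁ : IrrSub p V E₁)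
    (hTI : TIc V E₁ H) (hE₂ : E₂ ≤ H) {x : G} (hx : x ∈ E₂) (hmove : cj ⁅V, E₁⁆ x ≠ ⁅V, E₁⁆) :
    Nat.card (⁅V, E₁⁆ : Subgroup G) ≤ Nat.card (⁅V, E₂⁆ : Subgroup G) := by
  apply Nat.card_le_card_of_injective
    (fun w : (⁅V, E₁⁆ : Subgroup G) => (⟨⁅(w : G), x⁻¹⁆, commutator_mem_commutator (h₁.comm_le w.2) (E₂.inv_mem hx)⟩ : (⁅V, E₂⁆ : Subgroup G)))
  intro w w' h
  apply Subtype.ext
  exact comm_inj hV h₁ hTI (hE₂ hx) hmove w.2 w'.2 (congrArg Subtype.val h)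

theorem exists_of_move (hV : IsElementaryAbelian p V) {E₁ E₂ H : Subgroup G} (h₁ : IrrSub p V E₁)
    (hTI : TIc V E₁ H) (hE₂ : E₂ ≤ H) {x : G} (hx : x ∈ E₂) (hmove : cj ⁅V, E₁⁆ x ≠ ⁅V, E₁⁆)
    (hcard : Nat.card (⁅V, E₂⁆ : Subgroup G) ≤ Nat.card (⁅V, E₁⁆ : Subgroup G)) {u : G} (hu : u ∈ ⁅V, E₂⁆) :
    ∃ w ∈ ⁅V, E₁⁆, u = w * (x⁻¹ * w⁻¹ * x) := by
  have hinj : Function.Injective
      (fun w : (⁅V, E₁⁆ : Subgroup G) => (⟨⁅(w : G), x⁻¹⁆, commutator_mem_commutator (h₁.comm_le w.2) (E₂.inv_mem hx)⟩ : (⁅V, E₂⁆ : Subgroup G))) := by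
    intro w w' h
    apply Subtype.ext
    exact comm_inj hV h₁ hTI (hE₂ hx) hmove w.2 w'.2 (congrArg Subtype.val h)
  obtain ⟨w, hw⟩ := (hinj.bijective_of_nat_card_le hcard).2 ⟨u, hu⟩
  refine ⟨w, w.2, ?_⟩
  rw [← comm_elt_eq]
  exact (congrArg Subtype.val hw).symm

theorem caseA {E₁ E₂ : Subgroup G} (h₁ : IrrSub p V E₁) (h₂ : IrrSub p V E₂)
    (hP : E₂ ≤ normalizer ((⁅V, E₁⁆ : Subgroup G) : Set G)) (h21 : ¬ ⁅V, E₂⁆ ≤ ⁅V, E₁⁆) :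
    ⁅⁅V, E₁⁆, E₂⁆ = ⊥ := by
  have h3 : ⁅V, E₁⁆ ⊓ ⁅V, E₂⁆ = ⊥ := by
    rcases h₂.irr _ inf_le_right (le_normalizer_inf' hP h₂.le_normalizer_comm) with h | h
    · exact h
    · exact absurd (inf_eq_right.mp h) h21
  rw [eq_bot_iff, ← h3]
  exact le_inf (le_normalizer_iff_commutator_le_left.mp hP) (commutator_mono h₁.comm_le le_rfl)

end Cfsg.Agent.Lib.Helper13
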