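import Cfsg.Agent.Lib.Helper13.SubPair3

set_option autoImplicit false
open Cfsg

/-! Two subgroups irreducible on their commutator modules: the exceptional configuration is impossible. -/

namespace Cfsg.Agent.Lib.Helper13

open Subgroup Cfsg.Agent.H12
open scoped commutatorElement

variable {G : Type*} [Group G]

theorem eq_one_of_conj_inv_eq_one {w x : G} (h : x⁻¹ * w⁻¹ * x = 1) : w = 1 := by
  have : w⁻¹ = x * (x⁻¹ * w⁻¹ * x) * x⁻¹ := by group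
  rw [h] at this
  simpa using this

theorem mem_centralizer_of_inf_eq_bot {V A E₂ : Subgroup G} (hAV : A ≤ V) (hA : A ⊓ ⁅V, E₂⁆ = ⊥) {z : G}
    (hz : z ∈ E₂) (hzn : z ∈ normalizer (A : Set G)) : z ∈ centralizer (A : Set G) := by
  rw [mem_centralizer_iff]
  intro w hw
  have h1 : ⁅w, z⁆ ∈ A ⊓ ⁅V, E₂⁆ := by
    refine mem_inf.mpr ⟨?_, commutator_mem_commutator (hAV hw) hz⟩
    have : ⁅w, z⁆ = w * (z * w⁻¹ * z⁻¹) := by rw [commutatorElement_def]; group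
    rw [this]
    exact mul_mem hw ((mem_normalizer_iff.mp hzn w⁻¹).mp (inv_mem hw))
  rw [hA, mem_bot] at h1
  exact commutatorElement_eq_one_iff_mul_comm.mp h1

variable [Finite G] {p : ℕ} [Fact p.Prime] {V : Subgroup G}

theorem caseB (hV : IsElementaryAbelian p V) {E₁ E₂ H : Subgroup G} (h₁ : IrrSub p V E₁) (h₂ : IrrSub p V E₂)
    (hTI : TIc V E₁ H) (hE₂ : E₂ ≤ H) (hHV : H ≤ normalizer (V : Set G)) {x : G} (hx : x ∈ E₂)
    (hmove : cj ⁅V, E₁⁆ x ≠ ⁅V, E₁⁆)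
    (hcard : Nat.card (⁅V, E₂⁆ : Subgroup G) ≤ Nat.card (⁅V, E₁⁆ : Subgroup G)) : False := by
  have hsurj : ∀ u ∈ ⁅V, E₂⁆, ∃ w ∈ ⁅V, E₁⁆, u = w * (x⁻¹ * w⁻¹ * x) :=
    fun u hu => exists_of_move hV h₁ hTI hE₂ hx hmove hcard hu
  have hint := inf_cj_eq_bot hV h₁ hTI (hE₂ hx) hmove
  -- B2
  have hW12 : ⁅V, E₁⁆ ⊓ ⁅V, E₂⁆ = ⊥ := by
    rw [eq_bot_iff]
    intro u hu
    obtain ⟨w, hw, huw⟩ := hsurj u hu.2
    have h1 : x⁻¹ * w⁻¹ * x ∈ ⁅V, E₁⁆ ⊓ cj ⁅V, E₁⁆ x := by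
      refine mem_inf.mpr ⟨?_, conj_mem_cj (inv_mem hw)⟩
      have : x⁻¹ * w⁻¹ * x = w⁻¹ * u := by rw [huw]; group
      rw [this]
      exact mul_mem (inv_mem hw) hu.1
    rw [hint, mem_bot] at h1
    rw [mem_bot, huw, h1, mul_one]
    exact eq_one_of_conj_inv_eq_one h1
  -- B3
  have hB3 : ∀ x' ∈ E₂, cj ⁅V, E₁⁆ x' = ⁅V, E₁⁆ ∨ cj ⁅V, E₁⁆ x' = cj ⁅V, E₁⁆ x := by
    intro x' hx'
    by_contra hcon
    push Not at hcon
    obtain ⟨hc1, hc2⟩ := hcon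
    have hb : ⁅V, E₁⁆ ≤ centralizer ((cj E₁ x' : Subgroup G) : Set G) := by
      rcases hTI x' (hE₂ hx') 1 H.one_mem with h | h
      · rw [cj_one] at h; exact absurd h hc1
      · have := h.2
        rw [cj_one, commutator_eq_bot_iff_le_centralizer] at this
        exact this
    have hb' : cj ⁅V, E₁⁆ x ≤ centralizer ((cj E₁ x' : Subgroup G) : Set G) := by
      rcases hTI x' (hE₂ hx') x (hE₂ hx) with h | h
      · exact absurd h hc2
      · have := h.2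
        rw [commutator_eq_bot_iff_le_centralizer] at this
        exact this
    have hic := (h₁.conj (hHV (hE₂ hx'))).inf_centralizer hV
    rw [comm_cj_of_mem E₁ (hHV (hE₂ hx'))] at hic
    apply h₁.comm_ne_bot hV
    rw [eq_bot_iff]
    intro w0 hw0
    have hu : ⁅w0, x'⁻¹⁆ ∈ ⁅V, E₂⁆ := commutator_mem_commutator (h₁.comm_le hw0) (E₂.inv_mem hx')
    obtain ⟨w, hw, huw⟩ := hsurj _ hu
    rw [comm_elt_eq] at huw
    have key : x'⁻¹ * w0⁻¹ * x' = w0⁻¹ * (w * (x⁻¹ * w⁻¹ * x)) := by rw [← huw]; group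
    have h2 : x'⁻¹ * w0⁻¹ * x' ∈ cj ⁅V, E₁⁆ x' ⊓ centralizer ((cj E₁ x' : Subgroup G) : Set G) := by
      refine mem_inf.mpr ⟨conj_mem_cj (inv_mem hw0), ?_⟩
      rw [key]
      exact mul_mem (inv_mem (hb hw0)) (mul_mem (hb hw) (hb' (conj_mem_cj (inv_mem hw))))
    rw [hic, mem_bot] at h2
    rw [mem_bot]
    exact eq_one_of_conj_inv_eq_one h2
  -- B4
  set E' := E₂ ⊓ normalizer ((⁅V, E₁⁆ : Subgroup G) : Set G) with hE'
  have hz1 : ∀ z ∈ E', z ∈ centralizer ((⁅V, E₁⁆ : Subgroup G) : Set G) :=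
    fun z hz => mem_centralizer_of_inf_eq_bot h₁.comm_le hW12 hz.1 hz.2
  have hz2 : ∀ z ∈ E', cj (cj ⁅V, E₁⁆ x) z = cj ⁅V, E₁⁆ x := by
    intro z hz
    rcases hB3 (x * z) (mul_mem hx hz.1) with h | h
    · exfalso
      apply hmove
      rw [← cj_mul] at h
      have h3 := congrArg (fun K => cj K z⁻¹) h
      simp only [cj_cj_inv] at h3
      rw [h3]
      exact cj_eq_self (inv_mem hz.2)
    · rw [cj_mul]; exact h
  have hAV : cj ⁅V, E₁⁆ x ≤ V := by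
    have := cj_mono h₁.comm_le x
    rwa [cj_eq_self (hHV (hE₂ hx))] at this
  have hA2 : cj ⁅V, E₁⁆ x ⊓ ⁅V, E₂⁆ = ⊥ := by
    conv_lhs => rw [← cj_eq_self (h₂.le_normalizer_comm hx)]
    rw [← cj_inf, hW12, cj_bot]
  have hz3 : ∀ z ∈ E', z ∈ centralizer ((cj ⁅V, E₁⁆ x : Subgroup G) : Set G) :=
    fun z hz => mem_centralizer_of_inf_eq_bot hAV hA2 hz.1 (cj_eq_self_iff.mp (hz2 z hz))
  have hz4 : ⁅V, E₂⁆ ≤ centralizer (E' : Set G) := by
    intro u hu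
    rw [mem_centralizer_iff]
    intro z hz
    obtain ⟨w, hw, huw⟩ := hsurj u hu
    have e1 := (mem_centralizer_iff.mp (hz1 z hz)) w hw
    have e2 := (mem_centralizer_iff.mp (hz3 z hz)) _ (conj_mem_cj (inv_mem hw) : x⁻¹ * w⁻¹ * x ∈ cj ⁅V, E₁⁆ x)
    generalize x⁻¹ * w⁻¹ * x = c at huw e2
    calc z * u = (z * w) * c := by rw [huw, mul_assoc]
      _ = w * (z * c) := by rw [← e1, mul_assoc]
      _ = u * z := by rw [← e2, huw, mul_assoc]
  have hquad : ⁅⁅V, E'⁆, E'⁆ = ⊥ := by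
    rw [← le_bot_iff, ← commutator_eq_bot_iff_le_centralizer.mpr hz4]
    exact commutator_mono (commutator_mono le_rfl inf_le_left) le_rfl
  have hp : IsPGroup p E' := by
    refine isPGroup_of_quad hV (inf_le_left.trans h₂.norm) ?_ hquad
    rw [eq_bot_iff, ← h₂.faith]
    exact inf_le_inf_right _ inf_le_left
  have hkey : ∀ g ∈ E₂, ∀ z ∈ E', g * z * g⁻¹ ∈ E' := by
    intro g hg z hz
    refine mem_inf.mpr ⟨mul_mem (mul_mem hg hz.1) (inv_mem hg), ?_⟩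
    rw [← cj_eq_self_iff, ← cj_mul, ← cj_mul]
    have hfix : cj (cj ⁅V, E₁⁆ g) z = cj ⁅V, E₁⁆ g := by
      rcases hB3 g hg with h | h
      · rw [h]; exact cj_eq_self hz.2
      · rw [h]; exact hz2 z hz
    rw [hfix, cj_cj_inv]
  have hnorm : E₂ ≤ normalizer (E' : Set G) := by
    intro g hg
    rw [mem_normalizer_iff]
    intro z
    refine ⟨hkey g hg z, fun h => ?_⟩
    have := hkey g⁻¹ (inv_mem hg) _ h
    simpa [mul_assoc] using this
  have hE'bot : E' = ⊥ := h₂.core E' inf_le_left hp hnorm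
  -- B5
  have hB5 : ∀ g ∈ E₂, g = 1 ∨ g = x := by
    intro g hg
    rcases hB3 g hg with h | h
    · left
      have : g ∈ E' := mem_inf.mpr ⟨hg, cj_eq_self_iff.mp h⟩
      rwa [hE'bot, mem_bot] at this
    · right
      have h3 : cj ⁅V, E₁⁆ (g * x⁻¹) = ⁅V, E₁⁆ := by rw [← cj_mul, h, cj_cj_inv]
      have : g * x⁻¹ ∈ E' := mem_inf.mpr ⟨mul_mem hg (inv_mem hx), cj_eq_self_iff.mp h3⟩
      rw [hE'bot, mem_bot] at this
      exact mul_inv_eq_one.mp this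
  have hsub : (E₂ : Set G) ⊆ {1, x} := by
    intro g hg
    rcases hB5 g hg with h | h
    · left; exact h
    · right; exact h
  have hc : Nat.card E₂ ≤ 2 := by
    calc Nat.card E₂ = (E₂ : Set G).ncard := (Nat.card_coe_set_eq _)
      _ ≤ ({1, x} : Set G).ncard := Set.ncard_le_ncard hsub (Set.toFinite _)
      _ ≤ ({x} : Set G).ncard + 1 := Set.ncard_insert_le 1 {x}
      _ = 2 := by rw [Set.ncard_singleton]
  have := h₂.card
  omega

end Cfsg.Agent.Lib.Helper13
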