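import Cfsg.Agent.Lib.Helper13.SubPair4
import Cfsg.Agent.Lib.Helper13.Chain

set_option autoImplicit false
open Cfsg

/-! Two subnormal subgroups irreducible on their commutator modules commute. -/

namespace Cfsg.Agent.Lib.Helper13

open Subgroup Cfsg.Agent.H12
open scoped commutatorElement

variable {G : Type*} [Group G] [Finite G] {p : ℕ} [Fact p.Prime] {V : Subgroup G}

/-- the statement proved by induction. -/
def PairConcl (V E₁ E₂ : Subgroup G) : Prop :=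
  ⁅V, E₁⁆ ≤ ⁅V, E₂⁆ ∨ ⁅V, E₂⁆ ≤ ⁅V, E₁⁆ ∨ (⁅⁅V, E₁⁆, E₂⁆ = ⊥ ∧ ⁅⁅V, E₂⁆, E₁⁆ = ⊥)

omit [Fact p.Prime] in
theorem tic_of_ih {n : ℕ}
    (ih : ∀ m < n, ∀ E₁ E₂ : Subgroup G, Nat.card (E₁ ⊔ E₂ : Subgroup G) = m → IrrSub p V E₁ → IrrSub p V E₂ →
      SN E₁ (E₁ ⊔ E₂) → SN E₂ (E₁ ⊔ E₂) → PairConcl V E₁ E₂)
    {E H : Subgroup G} (hH : Nat.card H = n) (hE : IrrSub p V E) (hSN : SN E H) (hne : E ≠ H)
    (hHV : H ≤ normalizer (V : Set G)) : TIc V E H := by
  obtain ⟨N, hEN, hNH, hHN⟩ := hSN.exists_normal hne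
  have hcjN : ∀ a ∈ H, cj E a ≤ N := by
    intro a ha
    have := cj_mono hEN a
    rwa [cj_eq_self (hHN ha)] at this
  intro a ha b hb
  have hK : cj E a ⊔ cj E b ≤ N := sup_le (hcjN a ha) (hcjN b hb)
  have hlt : Nat.card (cj E a ⊔ cj E b : Subgroup G) < n := by
    rw [← hH]
    refine lt_of_le_of_lt (card_le_of_le hK) ?_
    refine lt_of_le_of_ne (card_le_of_le hNH.le) ?_
    intro h
    exact hNH.ne (eq_of_le_of_card_eq hNH.le h)
  have h1 := ih _ hlt (cj E a) (cj E b) rfl (hE.conj (hHV ha)) (hE.conj (hHV hb))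
    ((hSN.conj ha).mono le_sup_left (hK.trans hNH.le)) ((hSN.conj hb).mono le_sup_right (hK.trans hNH.le))
  unfold PairConcl at h1
  rw [comm_cj_of_mem E (hHV ha), comm_cj_of_mem E (hHV hb)] at h1
  rcases h1 with h | h | h
  · left
    exact eq_of_le_of_card_eq h (by rw [card_cj, card_cj])
  · left
    exact (eq_of_le_of_card_eq h (by rw [card_cj, card_cj])).symm
  · right
    exact h

theorem exists_move {W E : Subgroup G} (h : ¬ E ≤ normalizer (W : Set G)) : ∃ x ∈ E, cj W x ≠ W := by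
  rw [SetLike.not_le_iff_exists] at h
  obtain ⟨x, hx, hxn⟩ := h
  exact ⟨x, hx, fun h2 => hxn (cj_eq_self_iff.mp h2)⟩

theorem irr_pair (hV : IsElementaryAbelian p V) : ∀ (n : ℕ) (E₁ E₂ : Subgroup G),
    Nat.card (E₁ ⊔ E₂ : Subgroup G) = n → IrrSub p V E₁ → IrrSub p V E₂ →
      SN E₁ (E₁ ⊔ E₂) → SN E₂ (E₁ ⊔ E₂) → PairConcl V E₁ E₂ := by
  intro n
  induction n using Nat.strong_induction_on with
  | _ n ih =>
    intro E₁ E₂ hn h₁ h₂ hs₁ hs₂
    by_cases h12 : ⁅V, E₁⁆ ≤ ⁅V, E₂⁆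
    · left; exact h12
    by_cases h21 : ⁅V, E₂⁆ ≤ ⁅V, E₁⁆
    · right; left; exact h21
    right; right
    have hHV : E₁ ⊔ E₂ ≤ normalizer (V : Set G) := sup_le h₁.norm h₂.norm
    have hne₁ : E₁ ≠ E₁ ⊔ E₂ := by
      intro h
      apply h21
      exact commutator_mono le_rfl (by rw [h]; exact le_sup_right)
    have hne₂ : E₂ ≠ E₁ ⊔ E₂ := by
      intro h
      apply h12
      exact commutator_mono le_rfl (by rw [h]; exact le_sup_left)
    have hT₁ : TIc V E₁ (E₁ ⊔ E₂) := tic_of_ih ih hn h₁ hs₁ hne₁ hHV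
    have hT₂ : TIc V E₂ (E₁ ⊔ E₂) := tic_of_ih ih hn h₂ hs₂ hne₂ hHV
    by_cases hP₁ : E₂ ≤ normalizer ((⁅V, E₁⁆ : Subgroup G) : Set G)
    · have hA := caseA h₁ h₂ hP₁ h21
      by_cases hP₂ : E₁ ≤ normalizer ((⁅V, E₂⁆ : Subgroup G) : Set G)
      · exact ⟨hA, caseA h₂ h₁ hP₂ h12⟩
      · exfalso
        obtain ⟨y, hy, hmove⟩ := exists_move hP₂
        have := move_le hV h₂ hT₂ le_sup_left hy hmove
        rw [hA, le_bot_iff] at this
        exact h₂.comm_ne_bot hV this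
    · obtain ⟨x, hx, hmovex⟩ := exists_move hP₁
      by_cases hP₂ : E₁ ≤ normalizer ((⁅V, E₂⁆ : Subgroup G) : Set G)
      · exfalso
        have hA := caseA h₂ h₁ hP₂ h12
        have := move_le hV h₁ hT₁ le_sup_right hx hmovex
        rw [hA, le_bot_iff] at this
        exact h₁.comm_ne_bot hV this
      · exfalso
        obtain ⟨y, hy, hmovey⟩ := exists_move hP₂
        exact caseB hV h₁ h₂ hT₁ le_sup_right hHV hx hmovex
          (card_le_of_move hV h₂ hT₂ le_sup_left hy hmovey)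

theorem irrSub_of_subnormal {E E₁ : Subgroup G} (hEV : E ≤ normalizer (V : Set G))
    (hf : E ⊓ centralizer (V : Set G) = ⊥) (hle : E₁ ≤ E) (hs : (E₁.subgroupOf E).IsSubnormal)
    (hOp : pCore p ↥E = ⊥)
    (hirr : ∀ U : Subgroup G, U ≤ ⁅V, E₁⁆ → E₁ ≤ normalizer (U : Set G) → U = ⊥ ∨ U = ⁅V, E₁⁆)
    (hc : 2 < Nat.card E₁) : IrrSub p V E₁ where
  norm := hle.trans hEV
  irr := hirr
  core := by
    intro R hR hRp hn
    have hle' : R.subgroupOf E ≤ E₁.subgroupOf E := fun x hx => hR hx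
    have hsn : (R.subgroupOf E).IsSubnormal := by
      refine IsSubnormal.step _ _ hle' hs ?_
      rw [normal_subgroupOf_iff_le_normalizer hle']
      intro x hx
      have hx' : (x : G) ∈ normalizer (R : Set G) := hn hx
      rw [mem_normalizer_iff]
      intro y
      exact mem_normalizer_iff.mp hx' y
    have hp : IsPGroup p (R.subgroupOf E) := hRp.comap_subtype
    have h1 := Cfsg.H9.subnormal_le_pCore p hsn hp
    rw [hOp, le_bot_iff, subgroupOf_eq_bot] at h1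
    have h2 : R ≤ R ⊓ E := le_inf le_rfl (hR.trans hle)
    rw [disjoint_iff.mp h1] at h2
    exact le_bot_iff.mp h2
  card := hc
  faith := by
    rw [eq_bot_iff, ← hf]
    exact inf_le_inf_right _ hle

end Cfsg.Agent.Lib.Helper13
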