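import Cfsg.Agent.Lib.Helper13.NPC6
import Cfsg.Agent.Lib.Helper13.AbOff
import Cfsg.Agent.Lib.Helper13.MinCfg
import Cfsg.Agent.Lib.Helper13.S4Class2

set_option autoImplicit false
open Cfsg

/-! Thompson's normal `p`-complement theorem: `N(J(S))` and `C(Z(S))`. -/

namespace Cfsg.Agent.Lib.Helper13

open Subgroup
open scoped commutatorElement

universe u

variable {p : ℕ}

/-- the common part of the analysis of the minimal configuration -/
theorem p5_common {X : Type u} [Group X] [Finite X] [Fact p.Prime] {e : ℕ} (he : e = 0 ∨ p ∣ e)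
    (hP : FunP2 p (WJe e) WC X) (hc : centralizer (pCore p X : Set X) ≤ pCore p X)
    (hq : HasNormalPComplement p (X ⧸ pCore p X)) (T : Sylow p X) (hmax : IsCoatom (T : Subgroup X))
    (C : Subgroup X) [C.Normal] (hJC : jAb e (T : Subgroup X) ≤ C)
    (hCΩ : ∀ z ∈ (T : Subgroup X) ⊓ centralizer ((T : Subgroup X) : Set X), z ^ p = 1 →
      ∀ x ∈ C, x * z = z * x) : HasNormalPComplement p X := by
  obtain ⟨K, hK⟩ := exists_InD hq T hmax
  have hJeq : jAb e ((T : Subgroup X) ⊓ C) = jAb e (T : Subgroup X) :=
    jAb_eq_of_le inf_le_left (le_inf (jAb_le e _) hJC)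
  have hN : normalizer (((T : Subgroup X) ⊓ C : Subgroup X) : Set X) ≤ normalizer (jAb e (T : Subgroup X) : Set X) := by
    have := normalizer_le_normalizer_induced (isCharPFunctor_WJe (p := p) he) ((T : Subgroup X) ⊓ C)
      (T.2.to_le inf_le_left)
    rwa [inducedFunctor_WJe, hJeq] at this
  have hTN : (T : Subgroup X) ≤ normalizer (jAb e (T : Subgroup X) : Set X) := by
    have := normalizer_le_normalizer_induced (isCharPFunctor_WJe (p := p) he) (T : Subgroup X) T.2
    rw [inducedFunctor_WJe] at this
    exact le_normalizer.trans this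
  have htop : C ⊔ normalizer (jAb e (T : Subgroup X) : Set X) = ⊤ := by
    rw [eq_top_iff]
    intro g _
    obtain ⟨c, hcC, n, hn, rfl⟩ := frattini_inf T C g
    exact mul_mem (mem_sup_left hcC) (mem_sup_right (hN hn))
  by_cases h : normalizer (jAb e (T : Subgroup X) : Set X) = ⊤
  · have h1 := (hP T).1
    rw [inducedFunctor_WJe, h] at h1
    exact npc_congr topEquiv h1
  · have h1 : normalizer (jAb e (T : Subgroup X) : Set X) = T := by
      by_contra hne
      exact h (hmax.2 _ (lt_of_le_of_ne hTN (Ne.symm hne)))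
    rw [h1] at htop
    have hΩ : ∀ z ∈ (T : Subgroup X) ⊓ centralizer ((T : Subgroup X) : Set X), z ^ p = 1 →
        ∀ x : X, x * z = z * x := by
      intro z hz hzp x
      have h2 : C ⊔ (T : Subgroup X) ≤ centralizer ({z} : Set X) := by
        refine sup_le ?_ ?_
        · intro c hcC
          rw [mem_centralizer_iff]
          intro y hy
          rw [Set.mem_singleton_iff.mp hy]
          exact (hCΩ z hz hzp c hcC).symm
        · intro t ht
          rw [mem_centralizer_iff]
          intro y hy
          rw [Set.mem_singleton_iff.mp hy]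
          exact (mem_centralizer_iff.mp hz.2 t ht).symm
      have h3 : x ∈ centralizer ({z} : Set X) := h2 (htop ▸ mem_top x)
      exact (mem_centralizer_iff.mp h3 z rfl).symm
    have h4 := hK.centralizer_center_eq_top hc T (Cfsg.Agent.H12.pCore_le_sylow T) hΩ
    have h5 := (hP T).2
    rw [inducedFunctor_WC, h4] at h5
    exact npc_congr topEquiv h5

/-- Thompson's theorem for odd `p` -/
theorem npc_thompson_odd {G : Type u} [Group G] [Finite G] [hp : Fact p.Prime] (hp2 : p ≠ 2) {e : ℕ}
    (he : e = 0 ∨ (Odd e ∧ p ∣ e)) (S : Sylow p G)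
    (hN : HasNormalPComplement p (normalizer (jAb e (S : Subgroup G) : Set G)))
    (hZ : HasNormalPComplement p (centralizer (((S : Subgroup G) ⊓ centralizer ((S : Subgroup G) : Set G) :
      Subgroup G) : Set G))) : HasNormalPComplement p G := by
  have he' : e = 0 ∨ p ∣ e := he.imp id (fun h => h.2)
  refine npc_of_two_functors (isCharPFunctor_WJe he') isCharPFunctor_WC (fun _ _ => True)
    (fun _ _ _ _ _ => trivial) (fun _ _ _ _ _ _ => trivial) ?_ G trivial S
    (by rw [inducedFunctor_WJe]; exact hN) (by rw [inducedFunctor_WC]; exact hZ)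
  intro X _ _ _ hP _ hc hq hmax
  obtain ⟨T⟩ : Nonempty (Sylow p X) := inferInstance
  obtain ⟨K, hK⟩ := exists_InD hq T (hmax T)
  have hVn : (zAb e (T : Subgroup X)).Normal :=
    zAb_normal hp2 (he.imp id (fun h => h.1)) hc (fun P _ hP => hK.isPStableOn hp2 P hP) T
  refine p5_common he' hP hc hq T (hmax T) (centralizer (zAb e (T : Subgroup X) : Set X))
    (jAb_le_centralizer_zAb e _) ?_
  intro z hz hzp x hx
  symm
  apply mem_centralizer_iff.mp hx
  apply (mem_sInf).mpr
  intro A hA
  apply mem_of_mem_maxAb hA hz.1 (centralizer_le hA.1 hz.2)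
  rcases he' with rfl | ⟨k, rfl⟩
  · exact pow_zero _
  · rw [pow_mul, hzp, one_pow]

end Cfsg.Agent.Lib.Helper13
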