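import Cfsg.Agent.Lib.Helper13.ThNPC

set_option autoImplicit false
open Cfsg

/-! Thompson's normal `2`-complement theorem for `S₄`-free groups. -/

namespace Cfsg.Agent.Lib.Helper13

open Subgroup
open scoped commutatorElement

universe u

theorem InD.isSolvable {X : Type*} [Group X] [Finite X] {p : ℕ} [Fact p.Prime] {B K : Subgroup X}
    (h : InD p B K) : Group.IsSolvable X := by
  have hKn := h.hKn
  have hBn := h.hBn
  rw [Group.isSolvable_iff_subgroup_quotient K]
  constructor
  · rw [Group.isSolvable_iff_subgroup_quotient (B.subgroupOf K)]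
    constructor
    · have h1 : IsPGroup p (B.subgroupOf K) := h.hBp.comap_of_injective K.subtype K.subtype_injective
      have := h1.isNilpotent
      infer_instance
    · apply Group.isSolvable_of_comm
      intro a b
      obtain ⟨a, rfl⟩ := QuotientGroup.mk_surjective a
      obtain ⟨b, rfl⟩ := QuotientGroup.mk_surjective b
      rw [← QuotientGroup.mk_mul, ← QuotientGroup.mk_mul, QuotientGroup.eq, mem_subgroupOf]
      have h1 : ⁅(b : X)⁻¹, (a : X)⁻¹⁆ ∈ B :=
        h.hab (commutator_mem_commutator (inv_mem b.2) (inv_mem a.2))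
      have h2 : (((a * b)⁻¹ * (b * a) : K) : X) = ⁅(b : X)⁻¹, (a : X)⁻¹⁆ := by
        rw [commutatorElement_def]
        push_cast
        group
      rw [h2]
      exact h1
  · have h1 : IsPGroup p (X ⧸ K) := by
      intro y
      obtain ⟨y, rfl⟩ := QuotientGroup.mk_surjective y
      obtain ⟨j, hj⟩ := h.hq y
      exact ⟨j, by rw [← QuotientGroup.mk_pow]; exact (QuotientGroup.eq_one_iff _).mpr hj⟩
    have := h1.isNilpotent
    infer_instance

/-- Thompson's theorem for `p = 2` and `S₄`-free groups -/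
theorem npc_thompson_two {G : Type u} [Group G] [Finite G] [Fact (Nat.Prime 2)] {e : ℕ} (he : e = 0 ∨ e = 2)
    (hS4 : ¬ Involves (Equiv.Perm (Fin 4)) G) (S : Sylow 2 G)
    (hN : HasNormalPComplement 2 (normalizer (jAb e (S : Subgroup G) : Set G)))
    (hZ : HasNormalPComplement 2 (centralizer (((S : Subgroup G) ⊓ centralizer ((S : Subgroup G) : Set G) :
      Subgroup G) : Set G))) : HasNormalPComplement 2 G := by
  have he' : e = 0 ∨ 2 ∣ e := he.imp id (fun h => by rw [h])
  refine npc_of_two_functors (isCharPFunctor_WJe he') isCharPFunctor_WC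
    (fun X _ => ¬ Involves (Equiv.Perm (Fin 4)) X)
    (fun _ _ _ h _ h' => h (Involves.of_subgroup h')) (fun _ _ _ h _ _ h' => h (Involves.of_quotient h')) ?_
    G hS4 S (by rw [inducedFunctor_WJe]; exact hN) (by rw [inducedFunctor_WC]; exact hZ)
  intro X _ _ hS4 hP _ hc hq hmax
  obtain ⟨T⟩ : Nonempty (Sylow 2 X) := inferInstance
  obtain ⟨K, hK⟩ := exists_InD hq T (hmax T)
  have hsol : Group.IsSolvable X := hK.isSolvable
  obtain ⟨hVn, hVE, -⟩ := Cfsg.Agent.S0601.result (p := 2) hc
  change (VOm 2 X).Normal at hVn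
  change IsElementaryAbelian 2 (VOm 2 X) at hVE
  have hOp : pCore 2 (X ⧸ centralizer (VOm 2 X : Set X)) = ⊥ := Cfsg.Agent.S0600.result _ hVE (VOm_gen 2 X)
  have hS1 := selfcent_of_solvable hOp
  have hVT : VOm 2 X ≤ (T : Subgroup X) :=
    (Cfsg.H1.le_pCore hVn (IsEA.isPGroup hVE)).trans (Cfsg.Agent.H12.pCore_le_sylow T)
  have hVe : AbExp e (VOm 2 X) := by
    refine ⟨fun x hx y hy => IsEA.comm hVE hx hy, fun x hx => ?_⟩
    rcases he with rfl | rfl
    · exact pow_zero x
    · exact hVE.2 x hx
  refine p5_common he' hP hc hq T (hmax T) (centralizer (VOm 2 X : Set X)) ?_ ?_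
  · apply sSup_le
    intro A hA
    by_contra hcon
    obtain ⟨B, -, hbo, hB⟩ := exists_bestOffender_of_abelian hVE (by rw [normalizer_eq_top]; exact le_top)
      hA.2.1.1 (T.2.to_le hA.1) (maxAb_offender hVe hVT hA) hcon
    exact hS4 (involves_S4_of_offender _ hVE hS1 hbo hB)
  · intro z hz hzp x hx
    symm
    apply mem_centralizer_iff.mp hx
    apply le_iSup (fun S : Sylow 2 X =>
      omegaOne 2 ((S : Subgroup X) ⊓ centralizer ((S : Subgroup X) : Set X))) T
    exact mem_omegaOne hz hzp

end Cfsg.Agent.Lib.Helper13
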