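import Cfsg.Agent.Lib.Helper13.TwoConj
import Cfsg.Agent.S1324

set_option autoImplicit false
open Cfsg
open scoped commutatorElement

namespace Cfsg.Agent.Lib.Helper13.TwoConj

theorem exists_hyperplane {X : Type*} [Group X] [Finite X] (p : ℕ) [Fact p.Prime] (A F : Subgroup X)
    (hE : IsElementaryAbelian p A) (hne : A ≠ ⊥) (hF : ¬ p ∣ Nat.card F)
    (hn : A ≤ Subgroup.normalizer (F : Set X))
    (hnc : ¬ F ≤ Subgroup.centralizer (A : Set X)) :
    ∃ B ≤ A, B.relIndex A = p ∧ ¬ (F ⊓ Subgroup.centralizer (B : Set X) ≤ Subgroup.centralizer (A : Set X)) := by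
  have hpp : p.Prime := Fact.out
  have hpA : IsPGroup p A := by
    rintro ⟨a, ha⟩
    exact ⟨1, Subtype.ext (by simpa using hE.2 a ha)⟩
  obtain ⟨n, hn'⟩ := IsPGroup.iff_card.1 hpA
  have hn0 : n ≠ 0 := by
    rintro rfl
    apply hne
    rw [pow_zero] at hn'
    exact Subgroup.eq_bot_of_card_eq A hn'
  by_cases hn1 : n = 1
  · subst hn1
    refine ⟨⊥, bot_le, ?_, ?_⟩
    · rw [Subgroup.relIndex_bot_left, hn', pow_one]
    · intro h
      apply hnc
      intro f hf
      refine h ⟨hf, ?_⟩
      show f ∈ Subgroup.centralizer _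
      rw [Subgroup.mem_centralizer_iff]
      intro y hy
      have : y = 1 := hy
      rw [this, one_mul, mul_one]
  · have h2 : p ^ 2 ≤ Nat.card ↥A := by
      rw [hn']
      exact Nat.pow_le_pow_right hpp.pos (by omega)
    by_contra hcon
    push Not at hcon
    apply hnc
    rw [Cfsg.Agent.S1324.result p A F hE h2 hF hn]
    apply iSup_le
    rintro ⟨B, hBA, hBi⟩
    have hdv : B.relIndex A ∣ p ^ n := hn' ▸ Subgroup.relIndex_dvd_card B A
    obtain ⟨k, -, hk⟩ := (Nat.dvd_prime_pow hpp).1 hdv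
    rcases Nat.lt_or_ge k 2 with hk2 | hk2
    · interval_cases k
      · rw [pow_zero, Subgroup.relIndex_eq_one] at hk
        exact inf_le_right.trans (Subgroup.centralizer_le hk)
      · rw [pow_one] at hk
        exact hcon B hBA hk
    · exfalso
      have h3 : p ^ 2 ≤ p ^ k := Nat.pow_le_pow_right hpp.pos hk2
      have h4 : p < p ^ 2 := by
        have := hpp.two_le
        nlinarith
      rw [hk] at hBi
      omega

end Cfsg.Agent.Lib.Helper13.TwoConj
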